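import Cfsg.Agent.Zel.Grp.Glue
import Cfsg.Agent.Zel.PI.Main
import Cfsg.Agent.Zel.BZ.Main

/-!
# The associative theorem
-/

set_option autoImplicit false

universe u

namespace Cfsg.Agent.Zel.Grp

theorem assocThmAll : AssocThmAll.{u} :=
  assocThmAll_of_boxes Cfsg.Agent.Zel.BZ.bzBox Cfsg.Agent.Zel.PI.zBox

end Cfsg.Agent.Zel.Grp
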