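import Cfsg.Agent.Zel.Grp.Core

/-!
# The bound for the order of a generator of a `p`-group with a `C_q × C_q` action
-/

set_option autoImplicit false

universe u

namespace Cfsg.Agent.Zel.Grp

open Cfsg.Agent.Zel

section Abs

variable {F R H : Type*} [Field F] [Ring R] [Algebra F R] [Group H] {ρ : H →* R}
  (hs : Submodule.span F (Set.range ρ) = ⊤) {q : ℕ} (χ : AddChar (ZMod q) F)
  (φ : MulAut H → R →ₐ[F] R) (hφ : ∀ γ h, φ γ (ρ h) = ρ (γ h))
  {p k : ℕ} [Fact p.Prime] [Fact q.Prime] [Finite H] (hH : IsPGroup p H) (hpq : q ≠ p)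
  [CharP F p] [CharP R p]

omit [Fact q.Prime] [Finite H] [CharP F p] in
theorem grFam_fix (γ : MulAut H) (hγ : ∀ g, γ g = g → g ^ p ^ k = 1) :
    GrFam q (p ^ k) (fun (_ : ZMod q) (b : Gr (isFilt_augF hs)) =>
      ∃ i, 1 ≤ i ∧ ∃ g ∈ dimSub hs i, γ g = g ∧ b = xi hs i g) where
  lie := by
    rintro _ _ _ _ ⟨i, hi, g, hg, hg', rfl⟩ ⟨j, hj, h, hh, hh', rfl⟩
    refine ⟨i + j, by omega, _, comm_mem_dimSub hs hg hh, ?_, xi_comm hs hg hh⟩
    simp only [map_mul, map_inv, hg', hh']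
  nil := by
    rintro _ _ ⟨i, -, g, hg, hg', rfl⟩
    exact xi_pow_eq_zero hs hg (hγ g hg')
  sym := by
    intro y hy
    choose w hw g hg hg' hy using hy
    rw [funext hy]
    exact symProd_xi_eq_zero hs (fixSub γ) (fun g hg => hγ g hg) w hw g hg hg' _ (by simp)

include hH hpq in
theorem fix_nil {N : ℕ}
    (hN : ∀ G : ZMod q → Gr (isFilt_augF hs) → Prop, GrFam q (p ^ k) G →
      ∀ x : ZMod q → Gr (isFilt_augF hs), (∀ a, G 0 (x a)) →
      ∀ w : List (ZMod q), N ≤ w.length → (w.map x).prod = 0)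
    {γ : MulAut H} (hγq : γ ^ q = 1) (hγ : ∀ g, γ g = g → g ^ p ^ k = 1) {i : ℕ} (hi : 1 ≤ i)
    {b : Gr (isFilt_augF hs)} (hb : b ∈ symGr hs χ i ⊤) (hfix : autGr hs φ hφ γ b = b) :
    b ^ N = 0 := by
  obtain ⟨g, hg, rfl⟩ := symGr_normal hs χ hi (symGr_fix hs χ φ hφ hH hpq hγq hi hb hfix)
  have h1 := span_pow_eq_bot (F := F) (fun l => xi hs i (g l))
    (hN _ (grFam_fix hs γ hγ) (fun l => xi hs i (g l))
      (fun l => by exact ⟨i, hi, g l, (hg l).1, (hg l).2, rfl⟩))
  rw [← Submodule.mem_bot F, ← h1]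
  exact Submodule.pow_mem_pow _ (Submodule.sum_mem _ (fun l _ =>
    Submodule.smul_mem _ _ (Submodule.subset_span (Set.mem_range_self l)))) N

variable (θ : ZMod q × ZMod q → MulAut H) (hθ : ∀ s t, θ (s + t) = θ s * θ t)

omit [Finite H] in
include hθ in
theorem theta_zero : θ 0 = 1 := by
  have := hθ 0 0
  rw [add_zero] at this
  exact (mul_eq_left.1 this.symm)

omit [Finite H] in
include hθ in
theorem theta_pow (s : ZMod q × ZMod q) : θ s ^ q = 1 := by
  have h1 : ∀ n : ℕ, θ s ^ n = θ (n • s) := by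
    intro n
    induction n with
    | zero => rw [pow_zero, zero_smul, theta_zero θ hθ]
    | succ n ih => rw [pow_succ, ih, succ_nsmul, hθ]
  rw [h1, ← theta_zero θ hθ]
  congr 1
  ext <;> simp

/-- the family of the common eigenvectors -/
def eigFam (d : ZMod q) (b : Gr (isFilt_augF hs)) : Prop :=
  ∃ i, 1 ≤ i ∧ ∃ c : ZMod q × ZMod q, c.1 = d ∧ b ∈ symGr hs χ i ⊤ ∧
    ∀ s, autGr hs φ hφ (θ s) b = χ (s.1 * c.1 + s.2 * c.2) • b

include hH hpq hθ in
theorem grFam_eig {N : ℕ}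
    (hN : ∀ G : ZMod q → Gr (isFilt_augF hs) → Prop, GrFam q (p ^ k) G →
      ∀ x : ZMod q → Gr (isFilt_augF hs), (∀ a, G 0 (x a)) →
      ∀ w : List (ZMod q), N ≤ w.length → (w.map x).prod = 0)
    (hfix : ∀ s, s ≠ 0 → ∀ g, θ s g = g → g ^ p ^ k = 1) :
    GrFam q (max (p ^ k) N) (eigFam hs χ φ hφ θ) where
  lie := by
    rintro _ _ a b ⟨i, hi, c, rfl, ha, ha'⟩ ⟨j, hj, e, rfl, hb, hb'⟩
    refine ⟨i + j, by omega, c + e, rfl, symGr_lie hs χ ha hb, fun s => ?_⟩
    rw [map_sub, map_mul, map_mul, ha', hb', smul_mul_smul_comm, smul_mul_smul_comm,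
      mul_comm (χ (s.1 * e.1 + s.2 * e.2)), ← smul_sub, ← AddChar.map_add_eq_mul]
    congr 2
    simp only [Prod.fst_add, Prod.snd_add]
    ring
  nil := by
    rintro _ b ⟨i, hi, c, -, hb, hb'⟩
    obtain ⟨s, hs0, hs1⟩ : ∃ s : ZMod q × ZMod q, s ≠ 0 ∧ s.1 * c.1 + s.2 * c.2 = 0 := by
      by_cases hc : c.1 = 0
      · exact ⟨(1, 0), by simp, by simp [hc]⟩
      · exact ⟨(c.2, -c.1), by simp [hc], by ring⟩
    have h1 := fix_nil hs χ φ hφ hH hpq hN (theta_pow θ hθ s) (hfix s hs0) hi hb (by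
      rw [hb', hs1, AddChar.map_zero_eq_one, one_smul])
    exact pow_eq_zero_of_le (le_max_right _ _) h1
  sym := by
    intro y hy
    let γ := θ (1, 0)
    have hγ : ∀ g, γ g = g → g ^ p ^ k = 1 := hfix _ (by simp)
    refine symProd_span_eq_zero (F := F)
      (X := {b | ∃ i, 1 ≤ i ∧ ∃ g ∈ dimSub hs i, γ g = g ∧ b = xi hs i g}) (by simp) ?_ 0
      ⟨1, le_rfl, 1, one_mem _, map_one _, (xi_one hs 1).symm⟩ y ?_
    · intro z hz
      choose w hw g hg hg' hz using hz
      rw [funext hz]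
      refine symProd_eq_zero_of_le (U := Finset.univ) (n := p ^ k) (fun T _ hT => ?_)
        (le_max_left _ _) le_rfl (by simp)
      exact symProd_xi_eq_zero hs (fixSub γ) (fun g hg => hγ g hg) w hw g hg hg' T hT
    · intro j _
      obtain ⟨i, hi, c, hc, hb, hb'⟩ := hy j
      obtain ⟨g, hg, h1⟩ := symGr_normal hs χ hi (symGr_fix hs χ φ hφ hH hpq
        (theta_pow θ hθ (1, 0)) hi hb (by rw [hb', hc]; simp))
      rw [h1]
      exact Submodule.sum_mem _ (fun l _ => Submodule.smul_mem _ _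
        (Submodule.subset_span ⟨i, hi, g l, (hg l).1, (hg l).2, rfl⟩))

/-- the eigencomponents of the symbol of `x` -/
noncomputable def eigGen (x : H) (c : ZMod q × ZMod q) : Gr (isFilt_augF hs) :=
  ∑ s : ZMod q × ZMod q, χ (-(s.1 * c.1 + s.2 * c.2)) • xi hs 1 (θ s x)

omit [Finite H] in
include hθ in
theorem eigGen_mem (x : H) (c : ZMod q × ZMod q) :
    eigFam hs χ φ hφ θ c.1 (eigGen hs χ θ x c) := by
  refine ⟨1, le_rfl, c, rfl, AddSubgroup.sum_mem _
    (fun s _ => mem_symGr hs χ _ (mem_dimSub_one hs _) trivial), fun t => ?_⟩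
  unfold eigGen
  rw [map_sum, Finset.smul_sum]
  refine Fintype.sum_equiv (Equiv.addLeft t) _ _ (fun s => ?_)
  rw [map_smul, autGr_xi hs φ hφ _ (mem_dimSub_one hs _), Equiv.coe_addLeft, hθ, smul_smul,
    ← AddChar.map_add_eq_mul]
  congr 2
  simp only [Prod.fst_add, Prod.snd_add]
  ring

omit [Finite H] in
include hθ in
theorem sum_eigGen (hχ : χ.IsPrimitive) (x : H) :
    ∑ c, eigGen hs χ θ x c = ((q : F) * q) • xi hs 1 x := by
  unfold eigGen
  rw [Finset.sum_comm]
  have h1 : ∀ s : ZMod q × ZMod q, ∑ c : ZMod q × ZMod q, χ (-(s.1 * c.1 + s.2 * c.2)) =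
      if s = 0 then (q : F) * q else 0 := by
    intro s
    have h2 : ∀ c : ZMod q × ZMod q, χ (-(s.1 * c.1 + s.2 * c.2)) =
        χ (c.1 * (-s.1)) * χ (c.2 * (-s.2)) := by
      intro c
      rw [← AddChar.map_add_eq_mul]
      congr 1
      ring
    simp only [h2]
    rw [Fintype.sum_prod_type]
    dsimp only
    rw [← Finset.sum_mul_sum, AddChar.sum_mulShift _ hχ, AddChar.sum_mulShift _ hχ]
    obtain ⟨a, b⟩ := s
    by_cases ha : a = 0 <;> by_cases hb : b = 0 <;> simp [ha, hb]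
  simp only [← Finset.sum_smul, h1]
  rw [Finset.sum_eq_single 0]
  · rw [if_pos rfl, theta_zero θ hθ]; rfl
  · intro s _ hs0; rw [if_neg hs0, zero_smul]
  · simp

omit [Finite H] [CharP R p] in
include hθ hpq hφ in
theorem xi_mem_span (hχ : χ.IsPrimitive) (x : H)
    (hx : Subgroup.closure (Set.range (fun s => θ s x)) = ⊤) (h : H) :
    xi hs 1 h ∈ Submodule.span F (Set.range (eigGen hs χ θ x)) := by
  set V := Submodule.span F (Set.range (eigGen hs χ θ x))
  have hq : (q : F) ≠ 0 := by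
    rw [Ne, CharP.cast_eq_zero_iff F p]
    intro h
    exact hpq ((Nat.prime_dvd_prime_iff_eq Fact.out Fact.out).1 h).symm
  have h1 : xi hs 1 x ∈ V := by
    rw [← Submodule.smul_mem_iff _ (mul_ne_zero hq hq), ← sum_eigGen hs χ θ hθ hχ]
    exact Submodule.sum_mem _ (fun c _ => Submodule.subset_span ⟨c, rfl⟩)
  have h2 : ∀ t, ∀ v ∈ V, autGr hs φ hφ (θ t) v ∈ V := by
    intro t v hv
    induction hv using Submodule.span_induction with
    | mem v hv =>
      obtain ⟨c, rfl⟩ := hv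
      obtain ⟨_, _, e, _, _, h3⟩ := eigGen_mem hs χ φ hφ θ hθ x c
      rw [h3]
      exact Submodule.smul_mem _ _ (Submodule.subset_span ⟨c, rfl⟩)
    | zero => rw [map_zero]; exact zero_mem _
    | add a b _ _ ha hb => rw [map_add]; exact add_mem ha hb
    | smul c a _ ha => rw [map_smul]; exact Submodule.smul_mem _ _ ha
  have h3 : h ∈ Subgroup.closure (Set.range (fun s => θ s x)) := hx ▸ trivial
  induction h3 using Subgroup.closure_induction with
  | mem g hg =>
    obtain ⟨t, rfl⟩ := hg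
    have := h2 t _ h1
    rwa [autGr_xi hs φ hφ _ (mem_dimSub_one hs _)] at this
  | one => rw [xi_one]; exact zero_mem _
  | mul a b _ _ ha hb =>
    rw [xi_mul hs le_rfl (mem_dimSub_one hs _) (mem_dimSub_one hs _)]; exact add_mem ha hb
  | inv a _ ha => rw [xi_inv hs le_rfl (mem_dimSub_one hs _)]; exact neg_mem ha

omit [Finite H] in
theorem sb_mem_pow (V : Submodule F (Gr (isFilt_augF hs))) (hV : ∀ h, xi hs 1 h ∈ V) (m : ℕ) :
    ∀ r ∈ augF F ρ m, sb (isFilt_augF hs) m r ∈ V ^ m := by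
  have hJ : ∀ a ∈ augJ F ρ, a ∈ augF F ρ 1 ∧ sb (isFilt_augF hs) 1 a ∈ V := by
    intro a ha
    induction ha using Submodule.span_induction with
    | mem a ha =>
      obtain ⟨h, rfl⟩ := ha
      exact ⟨sub_one_mem_augF h, hV h⟩
    | zero => exact ⟨zero_mem _, by rw [sb_zero]; exact zero_mem _⟩
    | add a b _ _ ha hb =>
      exact ⟨add_mem ha.1 hb.1, by rw [sb_add _ ha.1 hb.1]; exact add_mem ha.2 hb.2⟩
    | smul c a _ ha =>
      exact ⟨Submodule.smul_mem _ _ ha.1, by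
        rw [sb_smul _ c ha.1]; exact Submodule.smul_mem _ _ ha.2⟩
  induction m with
  | zero =>
    intro r _
    have hr : r ∈ Submodule.span F (Set.range ρ) := hs ▸ trivial
    rw [pow_zero]
    induction hr using Submodule.span_induction with
    | mem a ha =>
      obtain ⟨h, rfl⟩ := ha
      rw [sb_congr (isFilt_augF hs) (i := 0) (b := 1) trivial trivial (sub_one_mem_augF h), sb_one]
      exact Submodule.one_le.1 le_rfl
    | zero => rw [sb_zero]; exact zero_mem _
    | add a b _ _ ha hb =>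
      rw [sb_add (isFilt_augF hs) (i := 0) trivial trivial]
      exact add_mem (ha trivial) (hb trivial)
    | smul c a _ ha =>
      rw [sb_smul (isFilt_augF hs) (i := 0) c trivial]
      exact Submodule.smul_mem _ _ (ha trivial)
  | succ m ih =>
    intro r hr
    have key : r ∈ augF F ρ (m + 1) ∧ sb (isFilt_augF hs) (m + 1) r ∈ V ^ (m + 1) := by
      refine Submodule.mul_induction_on (C := fun r => r ∈ augF F ρ (m + 1) ∧
        sb (isFilt_augF hs) (m + 1) r ∈ V ^ (m + 1)) hr ?_ ?_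
      · intro a ha b hb
        refine ⟨Submodule.mul_mem_mul ha hb, ?_⟩
        rw [add_comm m 1, ← sb_mul _ (hJ a ha).1 hb, pow_add, pow_one]
        exact Submodule.mul_mem_mul (hJ a ha).2 (ih b hb)
      · intro a b ha hb
        exact ⟨add_mem ha.1 hb.1, by rw [sb_add _ ha.1 hb.1]; exact add_mem ha.2 hb.2⟩
    exact key.2

include hH hpq hθ hφ in
theorem abs_bound (hχ : χ.IsPrimitive) {N M : ℕ}
    (hN : ∀ G : ZMod q → Gr (isFilt_augF hs) → Prop, GrFam q (p ^ k) G →
      ∀ x : ZMod q → Gr (isFilt_augF hs), (∀ a, G 0 (x a)) →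
      ∀ w : List (ZMod q), N ≤ w.length → (w.map x).prod = 0)
    (hM : ∀ G : ZMod q → Gr (isFilt_augF hs) → Prop, GrFam q (max (p ^ k) N) G →
      ∀ x : ZMod q × ZMod q → Gr (isFilt_augF hs), (∀ a, G a.1 (x a)) →
      ∀ w : List (ZMod q × ZMod q), M ≤ w.length → (w.map x).prod = 0)
    (hfix : ∀ s, s ≠ 0 → ∀ g, θ s g = g → g ^ p ^ k = 1) (x : H)
    (hx : Subgroup.closure (Set.range (fun s => θ s x)) = ⊤) : (ρ x - 1) ^ M = 0 := by
  have h1 := span_pow_eq_bot (F := F) (eigGen hs χ θ x)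
    (hM _ (grFam_eig hs χ φ hφ hH hpq θ hθ hN hfix) _ (eigGen_mem hs χ φ hφ θ hθ x))
  have h2 : augF F ρ M = ⊥ := by
    refine augF_eq_bot hH hs (fun r hr => ?_)
    have := sb_mem_pow hs _ (xi_mem_span hs χ φ hφ hpq θ hθ hχ x hx) M r hr
    rw [h1, Submodule.mem_bot] at this
    exact (sb_eq_zero_iff _ hr).1 this
  have := (isFilt_augF hs).pow (sub_one_mem_augF (F := F) (ρ := ρ) x) M
  rwa [one_mul, h2, Submodule.mem_bot] at this

end Abs

theorem span_of_eq_top (F H : Type*) [Field F] [Group H] :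
    Submodule.span F (Set.range (MonoidAlgebra.of F H)) = ⊤ := by
  rw [eq_top_iff]
  intro r _
  induction r using MonoidAlgebra.induction_on with
  | of h => exact Submodule.subset_span ⟨h, rfl⟩
  | add a b ha hb => exact add_mem (ha trivial) (hb trivial)
  | smul c a ha => exact Submodule.smul_mem _ _ (ha trivial)

theorem exists_prim_char (p q : ℕ) [Fact p.Prime] [Fact q.Prime] (hpq : q ≠ p) :
    ∃ χ : AddChar (ZMod q) (AlgebraicClosure (ZMod p)), χ.IsPrimitive := by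
  let F := AlgebraicClosure (ZMod p)
  have hq : (q : F) ≠ 0 := by
    rw [Ne, CharP.cast_eq_zero_iff F p]
    intro h
    exact hpq ((Nat.prime_dvd_prime_iff_eq Fact.out Fact.out).1 h).symm
  have : NeZero (q : F) := ⟨hq⟩
  obtain ⟨ω, hω⟩ := HasEnoughRootsOfUnity.exists_primitiveRoot F q
  exact ⟨_, AddChar.zmodChar_primitive_of_primitive_root q hω⟩

theorem core_bound (hL : AssocThmAll.{u}) (p q k : ℕ) [Fact p.Prime] [Fact q.Prime] (hpq : q ≠ p) :
    ∃ N, ∀ (H : Type u) [Group H] [Finite H], IsPGroup p H →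
      ∀ θ : ZMod q × ZMod q → MulAut H, (∀ s t, θ (s + t) = θ s * θ t) →
      (∀ s, s ≠ 0 → ∀ g, θ s g = g → g ^ p ^ k = 1) →
      ∀ x, Subgroup.closure (Set.range (fun s => θ s x)) = ⊤ → x ^ p ^ N = 1 := by
  let F := AlgebraicClosure (ZMod p)
  obtain ⟨χ, hχ⟩ := exists_prim_char p q hpq
  obtain ⟨N, hN⟩ := assoc_bound (hL p q (p ^ k) Fact.out hpq) (ZMod q) (fun _ => 0)
  obtain ⟨M, hM⟩ := assoc_bound (hL p q (max (p ^ k) N) Fact.out hpq) (ZMod q × ZMod q)
    Prod.fst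
  refine ⟨M, fun H _ _ hH θ hθ hfix x hx => ?_⟩
  have : CharP (MonoidAlgebra F H) p :=
    charP_of_injective_algebraMap (algebraMap F (MonoidAlgebra F H)).injective p
  have h3 := abs_bound (span_of_eq_top F H) χ
    (fun γ => MonoidAlgebra.mapDomainAlgHom F F γ.toMonoidHom)
    (fun γ h => by simp) hH hpq θ hθ hχ (hN _) (hM _) hfix x hx
  have h4 : (MonoidAlgebra.of F H x - 1) ^ p ^ M = 0 :=
    pow_eq_zero_of_le (Nat.lt_pow_self (Fact.out : p.Prime).one_lt).le h3
  rw [sub_pow_char_pow_of_commute _ _ (Commute.one_right _), one_pow, sub_eq_zero,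
    ← map_pow, ← map_one (MonoidAlgebra.of F H)] at h4
  exact MonoidAlgebra.of_injective h4

theorem core_triv (p q : ℕ) [Fact p.Prime] [Fact q.Prime] (hpq : q ≠ p)
    (H : Type*) [Group H] [Finite H] (hH : IsPGroup p H)
    (θ : ZMod q × ZMod q → MulAut H) (hθ : ∀ s t, θ (s + t) = θ s * θ t)
    (hfix : ∀ s, s ≠ 0 → ∀ g, θ s g = g → g = 1)
    (x : H) (hx : Subgroup.closure (Set.range (fun s => θ s x)) = ⊤) : x = 1 := by
  let F := AlgebraicClosure (ZMod p)
  obtain ⟨χ, hχ⟩ := exists_prim_char p q hpq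
  have : CharP (MonoidAlgebra F H) p :=
    charP_of_injective_algebraMap (algebraMap F (MonoidAlgebra F H)).injective p
  have key : ∀ {S α : Type _} [Ring S] {G : ZMod q → S → Prop} (deg : α → ZMod q),
      GrFam q 1 G → ∀ x : α → S, (∀ a, G (deg a) (x a)) →
      ∀ w : List α, 1 ≤ w.length → (w.map x).prod = 0 := by
    intro S α _ G deg hG x hx w hw
    cases w with
    | nil => simp at hw
    | cons a w =>
      have := hG.nil _ _ (hx a)
      rw [pow_one] at this
      simp [this]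
  have h3 := abs_bound (k := 0) (N := 1) (M := 1) (span_of_eq_top F H) χ
    (fun γ => MonoidAlgebra.mapDomainAlgHom F F γ.toMonoidHom)
    (fun γ h => by simp) hH hpq θ hθ hχ
    (fun G hG => key (fun _ => 0) (by simpa using hG))
    (fun G hG => key Prod.fst (by simpa using hG)) (by simpa using hfix) x hx
  rw [pow_one, sub_eq_zero, ← map_one (MonoidAlgebra.of F H)] at h3
  exact MonoidAlgebra.of_injective h3

end Cfsg.Agent.Zel.Grp
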