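import Mathlib

/-!
# Fixed points of an automorphism of prime order in an invariant coset
-/

set_option autoImplicit false

namespace Cfsg.Agent.Zel.Grp

theorem exists_fixed_in_coset {H : Type*} [Group H] [Finite H] {q : ℕ} [Fact q.Prime]
    (γ : MulAut H) (hγ : γ ^ q = 1) (N : Subgroup H) (hN : ∀ x ∈ N, γ x ∈ N)
    (hq : ¬ q ∣ Nat.card N) (g : H) (hg : g⁻¹ * γ g ∈ N) : ∃ n ∈ N, γ (g * n) = g * n := by
  classical
  have hX : ∀ x : H, g⁻¹ * x ∈ N → g⁻¹ * (γ : Equiv.Perm H) x ∈ N := by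
    intro x hx
    have : g⁻¹ * γ x = g⁻¹ * γ g * γ (g⁻¹ * x) := by simp [mul_assoc]
    change g⁻¹ * γ x ∈ N
    rw [this]
    exact mul_mem hg (hN _ hx)
  let σ : Equiv.Perm {x : H // g⁻¹ * x ∈ N} :=
    Equiv.Perm.subtypePermOfFintype (γ : Equiv.Perm H) hX
  have hσ : ∀ (k : ℕ) (x : {x : H // g⁻¹ * x ∈ N}), ((σ ^ k) x : H) = (γ ^ k) (x : H) := by
    intro k
    induction k with
    | zero => intro x; rfl
    | succ k ih => intro x; rw [pow_succ, pow_succ, Equiv.Perm.mul_apply, ih]; rfl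
  have hσq : σ ^ q ^ 1 = 1 := by
    ext x
    rw [pow_one, hσ, hγ]; rfl
  let e : {x : H // g⁻¹ * x ∈ N} ≃ N :=
    { toFun := fun x => ⟨g⁻¹ * x, x.2⟩
      invFun := fun n => ⟨g * n, by simp⟩
      left_inv := fun x => by simp
      right_inv := fun n => by simp }
  have := Fintype.ofFinite {x : H // g⁻¹ * x ∈ N}
  obtain ⟨a, ha⟩ := Equiv.Perm.exists_fixed_point_of_prime (p := q) (n := 1)
    (by rw [← Nat.card_eq_fintype_card, Nat.card_congr e]; exact hq) hσq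
  refine ⟨g⁻¹ * a, a.2, ?_⟩
  rw [mul_inv_cancel_left]
  exact congrArg Subtype.val ha

theorem not_dvd_card_of_pGroup {H : Type*} [Group H] [Finite H] {p q : ℕ} [Fact p.Prime]
    [Fact q.Prime] (hH : IsPGroup p H) (hpq : q ≠ p) (N : Subgroup H) : ¬ q ∣ Nat.card N := by
  obtain ⟨s, hs⟩ := IsPGroup.iff_card.1 (hH.to_subgroup N)
  rw [hs]
  intro h
  exact hpq ((Nat.prime_dvd_prime_iff_eq Fact.out Fact.out).1
    ((Fact.out : q.Prime).dvd_of_dvd_pow h))

end Cfsg.Agent.Zel.Grp
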