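import Cfsg.Agent.Zel.Grp.Sym

/-!
# Passing from a set to its span
-/

set_option autoImplicit false

namespace Cfsg.Agent.Zel.Grp

open Cfsg.Agent.Zel

variable {F A ι : Type*} [CommRing F] [Ring A] [Algebra F A] [DecidableEq ι]

theorem symProd_update_of_not_mem (y : ι → A) {j : ι} (a : A) (k : ℕ) {S : Finset ι}
    (hj : j ∉ S) : symProd (Function.update y j a) k S = symProd y k S :=
  symProd_congr (fun i hi => Function.update_of_ne (fun h : i = j => hj (h ▸ hi)) _ _)

theorem symProd_update_lin (y : ι → A) (j : ι) (c : F) (a b : A) (k : ℕ) (S : Finset ι)
    (hj : j ∈ S) (hS : S.card = k) :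
    symProd (Function.update y j (c • a + b)) k S =
      c • symProd (Function.update y j a) k S + symProd (Function.update y j b) k S := by
  induction k generalizing S with
  | zero => rw [Finset.card_eq_zero.1 hS] at hj; simp at hj
  | succ k ih =>
    rw [symProd_succ, symProd_succ, symProd_succ, Finset.smul_sum, ← Finset.sum_add_distrib]
    refine Finset.sum_congr rfl (fun i hi => ?_)
    by_cases hij : i = j
    · subst hij
      simp only [Function.update_self,
        symProd_update_of_not_mem y _ k (Finset.notMem_erase i S), add_mul, smul_mul_assoc]
    · rw [ih _ (Finset.mem_erase.2 ⟨fun h => hij h.symm, hj⟩)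
        (by rw [Finset.card_erase_of_mem hi, hS]; rfl)]
      simp only [Function.update_of_ne hij, mul_add, mul_smul_comm]

/-- the linearised identity passes to the span -/
theorem symProd_span_eq_zero {X : Set A} {k : ℕ} {S : Finset ι} (hS : S.card = k)
    (h : ∀ y : ι → A, (∀ j, y j ∈ X) → symProd y k S = 0) (x0 : A) (hx0 : x0 ∈ X) (y : ι → A)
    (hy : ∀ j ∈ S, y j ∈ Submodule.span F X) : symProd y k S = 0 := by
  have key : ∀ T : Finset ι, T ⊆ S → ∀ y : ι → A, (∀ j ∈ T, y j ∈ Submodule.span F X) →
      (∀ j, j ∉ T → y j ∈ X) → symProd y k S = 0 := by
    intro T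
    induction T using Finset.induction_on with
    | empty => exact fun _ y _ h2 => h y (fun j => h2 j (Finset.notMem_empty j))
    | insert j T hj ih =>
      intro hT y h1 h2
      have hjS : j ∈ S := hT (Finset.mem_insert_self _ _)
      have h3 : ∀ a ∈ Submodule.span F X, symProd (Function.update y j a) k S = 0 := by
        intro a ha
        induction ha using Submodule.span_induction with
        | mem a ha =>
          refine ih ((Finset.subset_insert _ _).trans hT) _ (fun i hi => ?_) (fun i hi => ?_)
          · rw [Function.update_of_ne (fun h : i = j => hj (h ▸ hi))]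
            exact h1 i (Finset.mem_insert_of_mem hi)
          · by_cases hij : i = j
            · rw [hij, Function.update_self]; exact ha
            · rw [Function.update_of_ne hij]
              exact h2 i (by simp [hij, hi])
        | zero =>
          have := symProd_update_lin y j (1 : F) 0 0 k S hjS hS
          simpa using this
        | add a b _ _ ha hb =>
          have := symProd_update_lin y j (1 : F) a b k S hjS hS
          rwa [one_smul, ha, hb, smul_zero, add_zero] at this
        | smul c a _ ha =>
          have h0 := symProd_update_lin y j (1 : F) 0 0 k S hjS hS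
          have := symProd_update_lin y j c a 0 k S hjS hS
          rw [add_zero, ha, smul_zero, zero_add] at this
          rw [this]
          simpa using h0
      have := h3 (y j) (h1 j (Finset.mem_insert_self _ _))
      rwa [Function.update_eq_self] at this
  rw [symProd_congr (z := fun j => if j ∈ S then y j else x0) (fun j hj => by simp [hj])]
  exact key S subset_rfl _ (fun j hj => by simpa [hj] using hy j hj)
    (fun j hj => by simpa [hj] using hx0)

theorem span_pow_eq_bot {α : Type*} (x : α → A) {N : ℕ}
    (h : ∀ w : List α, N ≤ w.length → (w.map x).prod = 0) :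
    Submodule.span F (Set.range x) ^ N = ⊥ := by
  rw [Submodule.span_pow, Submodule.span_eq_bot]
  intro a ha
  obtain ⟨f, rfl⟩ := Set.mem_pow.1 ha
  choose g hg using fun i => (f i).2
  have := h (List.ofFn g) (by simp)
  rw [List.map_ofFn] at this
  rw [← this]
  congr 2
  funext i
  exact (hg i).symm

end Cfsg.Agent.Zel.Grp
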