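import Cfsg.Agent.Zel.Sand.Main
import Cfsg.Agent.Zel.Iface

/-!
# Long commutators vanish and commutators are nilpotent: the ring is nilpotent
-/

set_option autoImplicit false

namespace Cfsg.Agent.Zel.Grp

open Cfsg.Agent.Zel Cfsg.Agent.Zel.Sand

section Words

variable {α : Type*} [LinearOrder α]

/-- a property of factors that is unavoidable on recurrent maximal words is unavoidable -/
theorem exists_bound_of_rec [Finite α] (P : List α → Prop)
    (hext : ∀ w p s, P w → P (p ++ w ++ s))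
    (h : ∀ ω : ℕ → α, (∀ i, ¬ ILt ω (sh i ω)) → (∀ n, ∃ j, 1 ≤ j ∧ Ag n (sh j ω) ω) →
      ∃ i n, P (seg ω i n)) :
    ∃ N : ℕ, ∀ w : List α, N ≤ w.length → P w := by
  have hinf : ∀ y : ℕ → α, ∃ i n, P (seg y i n) := by
    intro y
    by_contra hc
    let X : Set (ℕ → α) := {y | ∀ i n, ¬ P (seg y i n)}
    have hne : X.Nonempty := ⟨y, fun i n h => hc ⟨i, n, h⟩⟩
    have hsh : ∀ y ∈ X, ∀ i, sh i y ∈ X := by
      intro y hy i j n h
      have : seg (sh i y) j n = seg y (i + j) n := seg_congr (fun l _ => by simp [sh, add_assoc])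
      exact hy _ _ (this ▸ h)
    have hcl : ∀ y, (∀ n, ∃ x ∈ X, Ag n x y) → y ∈ X := by
      intro y hy i n h
      obtain ⟨x, hx, hag⟩ := hy (i + n)
      have : seg y i n = seg x i n := seg_congr (fun l hl => (hag (i + l) (by omega)).symm)
      exact hx _ _ (this ▸ h)
    obtain ⟨ω, hω, hM, hR⟩ := exists_rec_max hne hsh hcl
    obtain ⟨i, n, hP⟩ := h ω hM hR
    exact hω i n hP
  by_contra hc
  have h : ∀ N : ℕ, ∃ w : List α, N ≤ w.length ∧ ¬ P w := by
    intro N
    by_contra h
    exact hc ⟨N, fun w hw => by_contra (fun hb => h ⟨w, hw, hb⟩)⟩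
  choose w hw1 hw2 using h
  have a : α := (w 1).get ⟨0, hw1 1⟩
  obtain ⟨y, hy⟩ := exists_limit (fun k l => (w k).getD l a)
  obtain ⟨i, n, hb⟩ := hinf y
  obtain ⟨k, hk, hag⟩ := hy (i + n) (i + n)
  have h1 : seg y i n = seg (fun l => (w k).getD l a) i n :=
    seg_congr (fun l hl => (hag (i + l) (by omega)).symm)
  obtain ⟨r, hr⟩ : ∃ r, (w k).length = i + n + r :=
    ⟨(w k).length - (i + n), by have := hw1 k; omega⟩
  apply hw2 k
  rw [← seg_getD (w k) a, hr, seg_add, seg_add, zero_add, ← h1]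
  exact hext _ _ _ hb

/-- weak records with long agreement -/
theorem exists_record {ω : ℕ → α} (hM : ∀ i, ¬ ILt ω (sh i ω))
    (hR : ∀ n, ∃ j, 1 ≤ j ∧ Ag n (sh j ω) ω) (n : ℕ) :
    ∃ j, 1 ≤ j ∧ Ag n (sh j ω) ω ∧ ∀ i, 1 ≤ i → i < j → ¬ ILt (sh j ω) (sh i ω) := by
  obtain ⟨j0, hj0, hag⟩ := hR n
  have hmax : ∀ J, 1 ≤ J → ∃ j, 1 ≤ j ∧ j ≤ J ∧
      ∀ i, 1 ≤ i → i ≤ J → ¬ ILt (sh j ω) (sh i ω) := by
    intro J hJ
    induction J, hJ using Nat.le_induction with
    | base =>
      refine ⟨1, le_rfl, le_rfl, fun i h1 h2 => ?_⟩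
      rw [le_antisymm h2 h1]; exact ILt.irrefl _
    | succ J hJ ih =>
      obtain ⟨j, h1, h2, h3⟩ := ih
      by_cases hlt : ILt (sh j ω) (sh (J + 1) ω)
      · refine ⟨J + 1, by omega, le_rfl, fun i h4 h5 => ?_⟩
        rcases Nat.lt_succ_iff_lt_or_eq.1 (Nat.lt_succ_of_le h5) with h6 | rfl
        · exact fun h7 => h3 i h4 (by omega) (hlt.trans h7)
        · exact ILt.irrefl _
      · refine ⟨j, h1, by omega, fun i h4 h5 => ?_⟩
        rcases Nat.lt_succ_iff_lt_or_eq.1 (Nat.lt_succ_of_le h5) with h6 | rfl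
        · exact h3 i h4 (by omega)
        · exact hlt
  obtain ⟨j, h1, h2, h3⟩ := hmax j0 hj0
  exact ⟨j, h1, ag_of_between (h3 j0 hj0 le_rfl) (hM j) hag, fun i h4 h5 => h3 i h4 (by omega)⟩

omit [LinearOrder α] in
theorem sh_eq_of_ag {ω : ℕ → α} {k β : ℕ} (h1 : Ag β (sh k ω) ω)
    (h2 : sh (k + β) ω = sh β ω) : sh k ω = ω := by
  funext l
  by_cases hl : l < β
  · exact h1 l hl
  · obtain ⟨r, rfl⟩ : ∃ r, l = β + r := ⟨l - β, by omega⟩
    have := congrFun h2 r
    simpa [sh, add_assoc] using this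

/-- if `ω[k, k+β) = ω[0, β)` then `T^β ω` is not below `T^(k+β) ω` -/
theorem not_ILt_of_border {ω : ℕ → α} (hM : ∀ i, ¬ ILt ω (sh i ω)) {k β : ℕ}
    (h1 : Ag β (sh k ω) ω) : ¬ ILt (sh β ω) (sh (k + β) ω) := by
  rintro ⟨d, h2, h3⟩
  refine hM k ⟨β + d, fun l hl => ?_, by simpa [sh, add_assoc] using h3⟩
  by_cases hl' : l < β
  · exact (h1 l hl').symm
  · obtain ⟨r, rfl⟩ : ∃ r, l = β + r := ⟨l - β, by omega⟩
    have := h2 r (by omega)
    simpa [sh, add_assoc] using this

/-- the word has a long regular factor or an `n`-th power of a regular word as a factor -/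
def Bad2 (c n : ℕ) (w : List α) : Prop :=
  ∃ p u s : List α, Reg u ∧ ((c ≤ u.length ∧ w = p ++ u ++ s) ∨
    w = p ++ (List.replicate n u).flatten ++ s)

theorem exists_bad2_bound (α : Type*) [LinearOrder α] [Finite α] (c n : ℕ) :
    ∃ N : ℕ, ∀ w : List α, N ≤ w.length → Bad2 c n w := by
  classical
  refine exists_bound_of_rec (Bad2 c n) ?_ ?_
  · rintro w p s ⟨p', u, s', hu, h | h⟩
    · exact ⟨p ++ p', u, s' ++ s, hu, Or.inl ⟨h.1, by rw [h.2]; simp⟩⟩
    · exact ⟨p ++ p', u, s' ++ s, hu, Or.inr (by rw [h]; simp)⟩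
  · intro ω hM hR
    by_cases hper : ∃ j, 1 ≤ j ∧ sh j ω = ω
    · obtain ⟨hj1, hj⟩ := Nat.find_spec hper
      have hmin := fun m => Nat.find_min hper (m := m)
      generalize Nat.find hper = j at hj1 hj hmin
      have hreg : Reg (seg ω 0 j) := by
        refine reg_seg hM hj1 (fun k hk1 hk2 hag => hmin k hk2 ⟨hk1, ?_⟩)
        have h1 := not_ILt_of_border hM hag
        rw [show k + (j - k) = j by omega, hj] at h1
        have h2 : sh (j - k) ω = ω := eq_of_not_ILt h1 (hM _)
        exact absurd ⟨by omega, h2⟩ (hmin (j - k) (by omega))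
      have hpow : ∀ m, seg ω 0 (m * j) = (List.replicate m (seg ω 0 j)).flatten := by
        intro m
        induction m with
        | zero => simp [seg_zero]
        | succ m ih =>
          rw [show (m + 1) * j = j + m * j by ring, seg_add, List.replicate_succ,
            List.flatten_cons, ← ih]
          congr 1
          exact seg_congr (fun l _ => by simpa [sh] using congrFun hj l)
      exact ⟨0, n * j, [], seg ω 0 j, [], hreg, Or.inr (by rw [hpow]; simp)⟩
    · have hne : ∀ j, 1 ≤ j → ∃ n, ¬ Ag n (sh j ω) ω := by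
        intro j hj
        by_contra hc
        refine hper ⟨j, hj, funext (fun l => ?_)⟩
        by_contra hl
        exact hc ⟨l + 1, fun h => hl (h l (Nat.lt_succ_self _))⟩
      choose! ν hν using hne
      obtain ⟨j, hj1, hag, hrec⟩ := exists_record hM hR ((Finset.range c).sup ν)
      have hjc : c ≤ j := by
        by_contra hlt
        exact hν j hj1 (hag.mono (Finset.le_sup (f := ν) (Finset.mem_range.2 (by omega))))
      have hreg : Reg (seg ω 0 j) := by
        refine reg_seg hM hj1 (fun k hk1 hk2 hb => hper ⟨k, hk1, sh_eq_of_ag hb ?_⟩)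
        have h1 := not_ILt_of_border hM hb
        rw [show k + (j - k) = j by omega] at h1 ⊢
        exact eq_of_not_ILt (hrec (j - k) (by omega) (by omega)) h1
      exact ⟨0, j, [], seg ω 0 j, [], hreg, Or.inl ⟨by rw [seg_length]; exact hjc, by simp⟩⟩

end Words

section Alg

variable {α : Type*} [LinearOrder α] {R : Type*} [Ring R] {x : α → R}

/-- a regular word is the leading word of a bracketing of the same length -/
theorem exists_lead_tree {u : List α} (hu : Reg u) :
    ∃ t : FreeMagma α, t.length = u.length ∧ Lead x (ev x t) u := by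
  induction hn : u.length using Nat.strong_induction_on generalizing u with
  | _ n ih =>
    by_cases h2 : 2 ≤ u.length
    · obtain ⟨v, w, hv, hw, huv, hlt⟩ := hu.exists_fact h2
      have h3 := List.length_pos_iff.2 hv.1
      have h4 := List.length_pos_iff.2 hw.1
      have h5 : v.length + w.length = n := by rw [← hn, huv, List.length_append]
      obtain ⟨c, hc, hcv⟩ := ih v.length (by omega) hv rfl
      obtain ⟨d, hd, hdw⟩ := ih w.length (by omega) hw rfl
      refine ⟨c * d, ?_, ?_⟩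
      · rw [← h5, ← hc, ← hd]; rfl
      · rw [huv, ev_mul, Ring.lie_def]
        exact (hcv.mul hdw).sub (hdw.mul hcv) (by simp [add_comm]) hlt
    · have h3 := List.length_pos_iff.2 hu.1
      obtain ⟨a, rfl⟩ := List.length_eq_one_iff.1 (show u.length = 1 by omega)
      refine ⟨FreeMagma.of a, by rw [← hn]; rfl, ?_⟩
      have := Lead.val (x := x) [a]
      simpa [ev_of] using this

theorem lead_pow {c : R} {u : List α} (h : Lead x c u) (n : ℕ) :
    Lead x (c ^ n) (List.replicate n u).flatten := by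
  induction n with
  | zero => simpa using Lead.val (x := x) []
  | succ n ih => rw [pow_succ', List.replicate_succ, List.flatten_cons]; exact h.mul ih

theorem val_eq_zero_of_low [Finite α] {n : ℕ}
    (hn : ∀ w : List α, w.length = n → (w.map x).prod ∈ Low x w) (w : List α)
    (hw : w.length = n) : (w.map x).prod = 0 := by
  have hwf : {l : List α | l.length = n}.WellFoundedOn SLt :=
    (List.finite_length_eq α n).wellFoundedOn
  refine hwf.induction (P := fun w => (w.map x).prod = 0) hw (fun w hw ih => ?_)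
  have hle : Low x w ≤ ⊥ := by
    refine (AddSubgroup.closure_le _).2 ?_
    rintro _ ⟨v, h4, h5, rfl⟩
    exact ih v (h4.trans hw) h5
  exact hle (hn w hw)

theorem low_of_lead_zero {u : List α} (h0 : Lead x 0 u) (p s : List α) :
    ((p ++ u ++ s).map x).prod ∈ Low x (p ++ u ++ s) := by
  have h1 := ((Lead.val (x := x) p).mul h0).mul (Lead.val s)
  unfold Lead at h1
  rw [mul_zero, zero_mul, zero_sub] at h1
  exact neg_mem_iff.1 h1

end Alg

/-- long commutators vanish and all commutators are nilpotent: long products vanish -/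
theorem exists_nil_bound (α : Type*) [LinearOrder α] [Finite α] (c n : ℕ) :
    ∃ N : ℕ, ∀ (R : Type*) [Ring R] (x : α → R),
      (∀ t : FreeMagma α, c ≤ t.length → ev x t = 0) → (∀ t : FreeMagma α, ev x t ^ n = 0) →
      ∀ w : List α, N ≤ w.length → (w.map x).prod = 0 := by
  obtain ⟨N, hN⟩ := exists_bad2_bound α c n
  refine ⟨N, fun R _ x h1 h2 w hw => val_eq_zero_of_low (fun v hv => ?_) w rfl⟩
  obtain ⟨p, u, s, hu, h⟩ := hN v (hv ▸ hw)
  obtain ⟨t, ht, hl⟩ := exists_lead_tree (x := x) hu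
  rcases h with ⟨hc, rfl⟩ | rfl
  · rw [h1 t (ht ▸ hc)] at hl
    exact low_of_lead_zero hl p s
  · have := lead_pow hl n
    rw [h2 t] at this
    exact low_of_lead_zero this p s

end Cfsg.Agent.Zel.Grp
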