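import Cfsg.Agent.Zel.Grp.Sym
import Cfsg.Agent.Zel.Grp.Nil

/-!
# The associative form of the Lie theorem, with a uniform bound
-/

set_option autoImplicit false

universe u

namespace Cfsg.Agent.Zel.Grp

open Cfsg.Agent.Zel

attribute [local instance 100] LieRing.ofAssociativeRing

/-- the hypotheses of the associative form: a graded family `G` of subsets closed under
commutators, of nilpotent elements of index `n`, with the linearised identity in degree zero -/
structure GrFam (q n : ℕ) {R : Type*} [Ring R] (G : ZMod q → R → Prop) : Prop where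
  lie : ∀ i j a b, G i a → G j b → G (i + j) (a * b - b * a)
  nil : ∀ i a, G i a → a ^ n = 0
  sym : ∀ y : Fin n → R, (∀ i, G 0 (y i)) → symProd y n Finset.univ = 0

theorem GrFam.ev_mem {q n : ℕ} {R α : Type*} [Ring R] {G : ZMod q → R → Prop} (h : GrFam q n G)
    {x : α → R} {deg : α → ZMod q} (hx : ∀ a, G (deg a) (x a)) (t : FreeMagma α) :
    G (dg deg t) (ev x t) := by
  induction t with
  | ih1 a => exact hx a
  | ih2 s t hs ht => exact h.lie _ _ _ _ hs ht

theorem assoc_qual {F : Type} [Field F] {q n : ℕ} (h : LieThm.{u} F q (2 * n)) {d : ℕ}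
    (R : Type u) [Ring R] [Algebra F R] (G : ZMod q → R → Prop) (hG : GrFam q n G)
    (x : Fin d → R) (deg : Fin d → ZMod q) (hx : ∀ a, G (deg a) (x a)) :
    ∃ N, ∀ w : List (Fin d), N ≤ w.length → (w.map x).prod = 0 := by
  obtain ⟨c, hc⟩ := h d R x deg
    (fun t => ad_pow_eq_zero (hG.nil _ _ (hG.ev_mem hx t)) le_rfl)
    (fun y hy => symProd_ad_eq_zero (U := Finset.univ) (n := n)
      (fun T _ hT => symProd_eq_zero_of_fin hG.sym _ T hT
        (fun j _ => hy j ▸ hG.ev_mem hx (y j))) le_rfl (Finset.subset_univ _) (by simp))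
  obtain ⟨N, hN⟩ := exists_nil_bound (Fin d) c n
  exact ⟨N, hN R x hc (fun t => hG.nil _ _ (hG.ev_mem hx t))⟩

/-- the associative form of the graded theorem -/
def AssocThm (F : Type) [Field F] (q n : ℕ) : Prop :=
  ∀ (d : ℕ) (R : Type u) [Ring R] [Algebra F R] (G : ZMod q → R → Prop), GrFam q n G →
    ∀ (x : Fin d → R) (deg : Fin d → ZMod q), (∀ a, G (deg a) (x a)) →
    ∃ N, ∀ w : List (Fin d), N ≤ w.length → (w.map x).prod = 0

/-- what the group-theoretic part uses -/
def AssocThmAll : Prop :=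
  ∀ (p q n : ℕ) [Fact p.Prime], q.Prime → q ≠ p → AssocThm.{u} (AlgebraicClosure (ZMod p)) q n

theorem assocThmAll_of_lieThmAll (h : LieThmAll.{u}) : AssocThmAll.{u} :=
  fun p q n _ hq hqp _ R _ _ G hG x deg hx => assoc_qual (h p q (2 * n) hq hqp) R G hG x deg hx

/-- the uniform associative form -/
theorem assoc_bound {F : Type} [Field F] {q n : ℕ} (h : AssocThm.{u} F q n) (α : Type)
    [Finite α] (deg : α → ZMod q) :
    ∃ N, ∀ (R : Type u) [Ring R] [Algebra F R] (G : ZMod q → R → Prop), GrFam q n G →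
      ∀ x : α → R, (∀ a, G (deg a) (x a)) →
      ∀ w : List α, N ≤ w.length → (w.map x).prod = 0 := by
  by_contra hc
  have h1 : ∀ N : ℕ, ∃ (R : Type u) (_ : Ring R) (_ : Algebra F R) (G : ZMod q → R → Prop)
      (x : α → R) (w : List α), GrFam q n G ∧ (∀ a, G (deg a) (x a)) ∧ N ≤ w.length ∧
        (w.map x).prod ≠ 0 := by
    intro N
    by_contra h2
    refine hc ⟨N, fun R _ _ G hG x hx w hw => ?_⟩
    by_contra h3
    exact h2 ⟨R, _, inferInstance, G, x, w, hG, hx, hw, h3⟩
  choose R iR iA G x w hG hx hw hne using h1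
  obtain ⟨d, ⟨e⟩⟩ := Finite.exists_equiv_fin α
  let G' : ZMod q → (∀ k, R k) → Prop := fun i a => ∀ k, G k i (a k)
  have hG' : GrFam q n G' :=
    { lie := fun i j a b ha hb k => (hG k).lie i j _ _ (ha k) (hb k)
      nil := fun i a ha => funext (fun k => (hG k).nil i _ (ha k))
      sym := fun y hy => funext (fun k => by
        have := map_symProd (Pi.evalRingHom R k) y n Finset.univ
        rw [Pi.evalRingHom_apply] at this
        rw [this]
        exact (hG k).sym _ (fun i => hy i k)) }
  obtain ⟨N, hN⟩ := h d (∀ k, R k) G' hG' (fun i k => x k (e.symm i))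
    (fun i => deg (e.symm i)) (fun i k => hx k _)
  have h2 := hN ((w N).map e) (by simpa using hw N)
  apply hne N
  have h3 := congrArg (Pi.evalRingHom R N) h2
  rw [map_list_prod, map_zero] at h3
  simpa [List.map_map, Function.comp_def] using h3

end Cfsg.Agent.Zel.Grp
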