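import Cfsg.Agent.Zel.Grp.GrpAlg
import Cfsg.Agent.Zel.Grp.Span
import Cfsg.Agent.Zel.Grp.Unif
import Cfsg.Agent.Zel.Grp.Coprime

/-!
# A finite `p`-group generated by one orbit of `C_q × C_q`: the order of the generator is bounded
-/

set_option autoImplicit false

universe u

namespace Cfsg.Agent.Zel.Grp

open Cfsg.Agent.Zel

section Abs

variable {F R H : Type*} [Field F] [Ring R] [Algebra F R] [Group H] {ρ : H →* R}
  (hs : Submodule.span F (Set.range ρ) = ⊤) {q : ℕ} (χ : AddChar (ZMod q) F)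
  (φ : MulAut H → R →ₐ[F] R) (hφ : ∀ γ h, φ γ (ρ h) = ρ (γ h))

/-- the action of an automorphism on the graded algebra -/
noncomputable def autGr (γ : MulAut H) : Gr (isFilt_augF hs) →ₐ[F] Gr (isFilt_augF hs) :=
  grMap _ (φ γ) (map_mem_augF (φ γ) γ (hφ γ))

include hφ in
theorem aut_mem_dimSub (γ : MulAut H) {i : ℕ} {g : H} (hg : g ∈ dimSub hs i) :
    γ g ∈ dimSub hs i := by
  have := map_mem_augF (φ γ) γ (hφ γ) i _ hg
  rwa [map_sub, map_one, hφ] at this

theorem autGr_xi (γ : MulAut H) {i : ℕ} {g : H} (hg : g ∈ dimSub hs i) :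
    autGr hs φ hφ γ (xi hs i g) = xi hs i (γ g) := by
  unfold autGr xi
  rw [grMap_sb _ _ _ hg, map_sub, map_one, hφ]

/-- combinations of symbols with coefficients in the ring generated by the values of `χ` -/
noncomputable def symGr (i : ℕ) (Q : Subgroup H) : AddSubgroup (Gr (isFilt_augF hs)) :=
  AddSubgroup.closure {b | ∃ (l : ZMod q) (g : H), g ∈ dimSub hs i ∧ g ∈ Q ∧ b = χ l • xi hs i g}

theorem mem_symGr {i : ℕ} {Q : Subgroup H} (l : ZMod q) {g : H} (hg : g ∈ dimSub hs i)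
    (hQ : g ∈ Q) : χ l • xi hs i g ∈ symGr hs χ i Q :=
  AddSubgroup.subset_closure ⟨l, g, hg, hQ, rfl⟩

theorem symGr_normal [NeZero q] {i : ℕ} (hi : 1 ≤ i) {Q : Subgroup H} {b : Gr (isFilt_augF hs)}
    (hb : b ∈ symGr hs χ i Q) : ∃ g : ZMod q → H, (∀ l, g l ∈ dimSub hs i ∧ g l ∈ Q) ∧
      b = ∑ l, χ l • xi hs i (g l) := by
  classical
  induction hb using AddSubgroup.closure_induction with
  | mem b hb =>
    obtain ⟨l, g, h1, h2, rfl⟩ := hb
    refine ⟨fun k => if k = l then g else 1, fun k => ?_, ?_⟩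
    · dsimp only
      split_ifs
      · exact ⟨h1, h2⟩
      · exact ⟨one_mem _, one_mem _⟩
    · rw [Finset.sum_eq_single l]
      · simp
      · intro k _ hk; simp [hk, xi_one]
      · simp
  | zero => exact ⟨fun _ => 1, fun _ => ⟨one_mem _, one_mem _⟩, by simp [xi_one]⟩
  | add a b _ _ ha hb =>
    obtain ⟨g, h1, rfl⟩ := ha
    obtain ⟨g', h2, rfl⟩ := hb
    refine ⟨fun l => g l * g' l, fun l => ⟨mul_mem (h1 l).1 (h2 l).1, mul_mem (h1 l).2 (h2 l).2⟩, ?_⟩
    rw [← Finset.sum_add_distrib]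
    exact Finset.sum_congr rfl (fun l _ => by rw [xi_mul hs hi (h1 l).1 (h2 l).1, smul_add])
  | neg a _ ha =>
    obtain ⟨g, h1, rfl⟩ := ha
    refine ⟨fun l => (g l)⁻¹, fun l => ⟨inv_mem (h1 l).1, inv_mem (h1 l).2⟩, ?_⟩
    rw [← Finset.sum_neg_distrib]
    exact Finset.sum_congr rfl (fun l _ => by rw [xi_inv hs hi (h1 l).1, smul_neg])

theorem symGr_lie {i j : ℕ} {a b : Gr (isFilt_augF hs)} (ha : a ∈ symGr hs χ i ⊤)
    (hb : b ∈ symGr hs χ j ⊤) : a * b - b * a ∈ symGr hs χ (i + j) ⊤ := by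
  induction ha using AddSubgroup.closure_induction with
  | mem a ha =>
    obtain ⟨l, g, h1, -, rfl⟩ := ha
    induction hb using AddSubgroup.closure_induction with
    | mem b hb =>
      obtain ⟨l', g', h2, -, rfl⟩ := hb
      rw [smul_mul_smul_comm, smul_mul_smul_comm, mul_comm (χ l'), ← smul_sub, xi_comm hs h1 h2,
        ← AddChar.map_add_eq_mul]
      exact mem_symGr hs χ _ (comm_mem_dimSub hs h1 h2) trivial
    | zero => simp
    | add b b' _ _ hb hb' =>
      have := add_mem hb hb'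
      rwa [sub_add_sub_comm, ← mul_add, ← add_mul] at this
    | neg b _ hb =>
      have := neg_mem hb
      rwa [neg_sub', ← mul_neg, ← neg_mul] at this
  | zero => simp
  | add a a' _ _ ha ha' =>
    have := add_mem ha ha'
    rwa [sub_add_sub_comm, ← mul_add, ← add_mul] at this
  | neg a _ ha =>
    have := neg_mem ha
    rwa [neg_sub', ← neg_mul, ← mul_neg] at this

/-- the fixed points of an automorphism -/
def fixSub (γ : MulAut H) : Subgroup H where
  carrier := {g | γ g = g}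
  mul_mem' := fun {a b} ha hb => by
    change γ (a * b) = a * b
    rw [map_mul, ha, hb]
  one_mem' := map_one γ
  inv_mem' := fun {a} ha => by
    change γ a⁻¹ = a⁻¹
    rw [map_inv, ha]

variable {p : ℕ} [Fact p.Prime] [Fact q.Prime] [Finite H] (hH : IsPGroup p H) (hpq : q ≠ p)

include hφ hH hpq in
theorem fix_lift {γ : MulAut H} (hγ : γ ^ q = 1) {i : ℕ} (hi : 1 ≤ i) {g : H}
    (hg : g ∈ dimSub hs i) (h : xi hs i (γ g) = xi hs i g) :
    ∃ g' ∈ dimSub hs i, γ g' = g' ∧ xi hs i g' = xi hs i g := by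
  have hγg := aut_mem_dimSub hs φ hφ γ hg
  obtain ⟨n, hn1, hn2⟩ := exists_fixed_in_coset γ hγ (dimSub hs (i + 1))
    (fun x hx => aut_mem_dimSub hs φ hφ γ hx) (not_dvd_card_of_pGroup hH hpq _) g (by
      rw [← xi_eq_zero_iff hs (mul_mem (inv_mem hg) hγg), xi_mul hs hi (inv_mem hg) hγg,
        xi_inv hs hi hg, h, neg_add_cancel])
  have hn3 := dimSub_anti hs i hn1
  refine ⟨g * n, mul_mem hg hn3, hn2, ?_⟩
  rw [xi_mul hs hi hg hn3, (xi_eq_zero_iff hs hn3).2 hn1, add_zero]

include hH hpq in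
theorem symGr_fix [CharP F p] {γ : MulAut H} (hγ : γ ^ q = 1) {i : ℕ} (hi : 1 ≤ i)
    {b : Gr (isFilt_augF hs)} (hb : b ∈ symGr hs χ i ⊤) (hfix : autGr hs φ hφ γ b = b) :
    b ∈ symGr hs χ i (fixSub γ) := by
  let T : Module.End F (Gr (isFilt_augF hs)) := (autGr hs φ hφ γ).toLinearMap
  have hT : ∀ (k : ℕ) (g : H), g ∈ dimSub hs i → (T ^ k) (xi hs i g) = xi hs i ((γ ^ k) g) := by
    intro k
    induction k with
    | zero => intro g _; rfl
    | succ k ih =>
      intro g hg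
      rw [pow_succ, pow_succ, Module.End.mul_apply]
      change (T ^ k) (autGr hs φ hφ γ _) = _
      rw [autGr_xi hs φ hφ γ hg, ih _ (aut_mem_dimSub hs φ hφ γ hg)]
      rfl
  have hsum : ∀ (m : ℕ) (g : H), g ∈ dimSub hs i →
      ∃ g' ∈ dimSub hs i, ∑ k ∈ Finset.range m, xi hs i ((γ ^ k) g) = xi hs i g' := by
    intro m g hg
    induction m with
    | zero => exact ⟨1, one_mem _, by simp [xi_one]⟩
    | succ m ih =>
      obtain ⟨g', h1, h2⟩ := ih
      have h3 := aut_mem_dimSub hs φ hφ (γ ^ m) hg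
      exact ⟨g' * (γ ^ m) g, mul_mem h1 h3, by
        rw [Finset.sum_range_succ, h2, xi_mul hs hi h1 h3]⟩
  have hπ : ∀ c ∈ symGr hs χ i ⊤, (∑ k ∈ Finset.range q, T ^ k) c ∈ symGr hs χ i (fixSub γ) := by
    intro c hc
    induction hc using AddSubgroup.closure_induction with
    | mem c hc =>
      obtain ⟨l, g, h1, -, rfl⟩ := hc
      obtain ⟨g', h2, h3⟩ := hsum q g h1
      have h4 : (∑ k ∈ Finset.range q, T ^ k) (xi hs i g) = xi hs i g' := by
        rw [LinearMap.sum_apply, ← h3]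
        exact Finset.sum_congr rfl (fun k _ => hT k g h1)
      have h5 : xi hs i (γ g') = xi hs i g' := by
        rw [← autGr_xi hs φ hφ γ h2, ← h4]
        change (T * ∑ k ∈ Finset.range q, T ^ k) (xi hs i g) = _
        have h6 : T * ∑ k ∈ Finset.range q, T ^ k = ∑ k ∈ Finset.range q, T ^ k + (T ^ q - 1) := by
          rw [← mul_geom_sum, sub_mul, one_mul]; abel
        rw [h6, LinearMap.add_apply, LinearMap.sub_apply, hT q g h1, hγ]
        simp
      obtain ⟨g'', h7, h8, h9⟩ := fix_lift hs φ hφ hH hpq hγ hi h2 h5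
      rw [map_smul, h4, ← h9]
      exact mem_symGr hs χ l h7 h8
    | zero => rw [map_zero]; exact zero_mem _
    | add a b _ _ ha hb => rw [map_add]; exact add_mem ha hb
    | neg a _ ha => rw [map_neg]; exact neg_mem ha
  have h1 : (∑ k ∈ Finset.range q, T ^ k) b = q • b := by
    have h0 : ∀ k : ℕ, (T ^ k) b = b := by
      intro k
      induction k with
      | zero => rfl
      | succ k ih =>
        rw [pow_succ, Module.End.mul_apply]
        change (T ^ k) (autGr hs φ hφ γ b) = b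
        rw [hfix, ih]
    rw [LinearMap.sum_apply, Finset.sum_congr rfl (fun k _ => h0 k)]
    simp
  have hcop : Nat.Coprime q p := (Nat.coprime_primes Fact.out Fact.out).2 hpq
  obtain ⟨r, -, hr⟩ := Nat.exists_mul_mod_eq_one_of_coprime hcop (Fact.out : p.Prime).one_lt
  have h2 : ((r * q : ℕ) : F) = 1 := by
    rw [mul_comm, CharP.cast_eq_mod F p, hr, Nat.cast_one]
  have h3 : b = r • (q • b) := by
    rw [← mul_smul, ← Nat.cast_smul_eq_nsmul F, h2, one_smul]
  rw [h3, ← h1]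
  exact nsmul_mem (hπ b hb) r

end Abs

end Cfsg.Agent.Zel.Grp
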