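import Mathlib

/-!
# The graded algebra of a filtered algebra

`Gr h` is the quotient of the Rees algebra `⨁ Φ i · X ^ i` by `⨁ Φ (i+1) · X ^ i`;
`sb h i r` is the symbol in degree `i` of `r ∈ Φ i`.
-/

set_option autoImplicit false

namespace Cfsg.Agent.Zel.Grp

open Polynomial

variable {F R : Type*} [CommRing F] [Ring R] [Algebra F R]

/-- a descending multiplicative filtration -/
structure IsFilt (Φ : ℕ → Submodule F R) : Prop where
  top : ∀ r, r ∈ Φ 0
  anti : ∀ i, Φ (i + 1) ≤ Φ i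
  mul : ∀ i j a b, a ∈ Φ i → b ∈ Φ j → a * b ∈ Φ (i + j)

variable {Φ : ℕ → Submodule F R}

theorem IsFilt.le (h : IsFilt Φ) {i j : ℕ} (hij : i ≤ j) : Φ j ≤ Φ i := by
  induction j, hij using Nat.le_induction with
  | base => exact le_rfl
  | succ j _ ih => exact (h.anti j).trans ih

theorem IsFilt.mul_left (h : IsFilt Φ) {i : ℕ} (a : R) {b : R} (hb : b ∈ Φ i) : a * b ∈ Φ i := by
  simpa using h.mul 0 i a b (h.top a) hb

theorem IsFilt.mul_right (h : IsFilt Φ) {i : ℕ} {a : R} (ha : a ∈ Φ i) (b : R) : a * b ∈ Φ i := by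
  simpa using h.mul i 0 a b ha (h.top b)

theorem IsFilt.pow (h : IsFilt Φ) {i : ℕ} {a : R} (ha : a ∈ Φ i) (n : ℕ) : a ^ n ∈ Φ (i * n) := by
  induction n with
  | zero => exact h.top _
  | succ n ih => rw [pow_succ, Nat.mul_succ]; exact h.mul _ _ _ _ ih ha

/-- the Rees algebra -/
def rees (h : IsFilt Φ) : Subalgebra F R[X] where
  carrier := {f | ∀ i, f.coeff i ∈ Φ i}
  mul_mem' := by
    intro f g hf hg i
    rw [coeff_mul]
    refine Submodule.sum_mem _ (fun p hp => ?_)
    rw [← Finset.HasAntidiagonal.mem_antidiagonal.1 hp]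
    exact h.mul _ _ _ _ (hf _) (hg _)
  add_mem' := by
    intro f g hf hg i
    rw [coeff_add]; exact add_mem (hf i) (hg i)
  algebraMap_mem' := by
    intro c i
    rw [Polynomial.algebraMap_apply, coeff_C]
    split_ifs with hi
    · rw [hi]; exact h.top _
    · exact zero_mem _

/-- the ideal of the elements of higher filtration -/
def reesId (h : IsFilt Φ) : Ideal (rees h) where
  carrier := {f | ∀ i, (f : R[X]).coeff i ∈ Φ (i + 1)}
  add_mem' := by
    intro f g hf hg i
    rw [Subalgebra.coe_add, coeff_add]; exact add_mem (hf i) (hg i)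
  zero_mem' := by intro i; simp
  smul_mem' := by
    intro f g hg i
    rw [smul_eq_mul, Subalgebra.coe_mul, coeff_mul]
    refine Submodule.sum_mem _ (fun p hp => ?_)
    rw [← Finset.HasAntidiagonal.mem_antidiagonal.1 hp, add_assoc]
    exact h.mul _ _ _ _ (f.2 _) (hg _)

instance reesId_twoSided (h : IsFilt Φ) : (reesId h).IsTwoSided where
  mul_mem_of_left := by
    intro f g hf i
    rw [Subalgebra.coe_mul, coeff_mul]
    refine Submodule.sum_mem _ (fun p hp => ?_)
    rw [← Finset.HasAntidiagonal.mem_antidiagonal.1 hp, add_right_comm]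
    exact h.mul _ _ _ _ (hf _) (g.2 _)

/-- the associated graded algebra -/
abbrev Gr (h : IsFilt Φ) : Type _ := rees h ⧸ reesId h

theorem monomial_mem_rees (h : IsFilt Φ) {i : ℕ} {r : R} (hr : r ∈ Φ i) :
    monomial i r ∈ rees h := by
  intro j
  rw [coeff_monomial]
  split_ifs with hij
  · rw [← hij]; exact hr
  · exact zero_mem _

open Classical in
/-- the symbol -/
noncomputable def sb (h : IsFilt Φ) (i : ℕ) (r : R) : Gr h :=
  if hr : r ∈ Φ i then Ideal.Quotient.mk (reesId h) ⟨monomial i r, monomial_mem_rees h hr⟩ else 0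

variable (h : IsFilt Φ)

theorem sb_def {i : ℕ} {r : R} (hr : r ∈ Φ i) :
    sb h i r = Ideal.Quotient.mk (reesId h) ⟨monomial i r, monomial_mem_rees h hr⟩ := dif_pos hr

theorem sb_mul {i j : ℕ} {a b : R} (ha : a ∈ Φ i) (hb : b ∈ Φ j) :
    sb h i a * sb h j b = sb h (i + j) (a * b) := by
  rw [sb_def h ha, sb_def h hb, sb_def h (h.mul _ _ _ _ ha hb), ← map_mul]
  congr 1
  exact Subtype.ext (monomial_mul_monomial _ _ _ _)

theorem sb_add {i : ℕ} {a b : R} (ha : a ∈ Φ i) (hb : b ∈ Φ i) :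
    sb h i (a + b) = sb h i a + sb h i b := by
  rw [sb_def h ha, sb_def h hb, sb_def h (add_mem ha hb), ← map_add]
  congr 1
  exact Subtype.ext (map_add _ _ _)

theorem sb_sub {i : ℕ} {a b : R} (ha : a ∈ Φ i) (hb : b ∈ Φ i) :
    sb h i (a - b) = sb h i a - sb h i b := by
  rw [sb_def h ha, sb_def h hb, sb_def h (sub_mem ha hb), ← map_sub]
  congr 1
  exact Subtype.ext (map_sub _ _ _)

theorem sb_smul {i : ℕ} (c : F) {a : R} (ha : a ∈ Φ i) : sb h i (c • a) = c • sb h i a := by
  rw [sb_def h ha, sb_def h (Submodule.smul_mem _ c ha)]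
  have : (⟨monomial i (c • a), monomial_mem_rees h (Submodule.smul_mem _ c ha)⟩ : rees h) =
      c • ⟨monomial i a, monomial_mem_rees h ha⟩ := Subtype.ext (smul_monomial _ _ _).symm
  rw [this]
  exact map_smul (Ideal.Quotient.mkₐ F (reesId h)) c _

theorem sb_eq_zero_iff {i : ℕ} {a : R} (ha : a ∈ Φ i) : sb h i a = 0 ↔ a ∈ Φ (i + 1) := by
  rw [sb_def h ha, Ideal.Quotient.eq_zero_iff_mem]
  constructor
  · intro h1
    simpa using h1 i
  · intro h1 j
    change (monomial i a).coeff j ∈ _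
    rw [coeff_monomial]
    split_ifs with hij
    · rw [← hij]; exact h1
    · exact zero_mem _

theorem sb_zero (i : ℕ) : sb h i 0 = 0 := (sb_eq_zero_iff h (zero_mem _)).2 (zero_mem _)

theorem sb_congr {i : ℕ} {a b : R} (ha : a ∈ Φ i) (hb : b ∈ Φ i) (hab : a - b ∈ Φ (i + 1)) :
    sb h i a = sb h i b := by
  rw [← sub_eq_zero, ← sb_sub h ha hb]
  exact (sb_eq_zero_iff h (sub_mem ha hb)).2 hab

theorem sb_one : sb h 0 1 = 1 := by
  rw [sb_def h (h.top 1), ← map_one (Ideal.Quotient.mk (reesId h))]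
  congr 1

theorem sb_pow {i : ℕ} {a : R} (ha : a ∈ Φ i) (n : ℕ) :
    sb h i a ^ n = sb h (i * n) (a ^ n) := by
  induction n with
  | zero => rw [pow_zero, pow_zero, mul_zero, sb_one]
  | succ n ih => rw [pow_succ, ih, sb_mul h (h.pow ha n) ha, pow_succ, Nat.mul_succ]

theorem sb_sum {ι : Type*} {i : ℕ} (s : Finset ι) {a : ι → R} (ha : ∀ j ∈ s, a j ∈ Φ i) :
    sb h i (∑ j ∈ s, a j) = ∑ j ∈ s, sb h i (a j) := by
  classical
  induction s using Finset.induction_on with
  | empty => simpa using sb_zero h i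
  | insert j s hj ih =>
    rw [Finset.sum_insert hj, Finset.sum_insert hj,
      sb_add h (ha j (Finset.mem_insert_self _ _))
        (Submodule.sum_mem _ (fun k hk => ha k (Finset.mem_insert_of_mem hk))),
      ih (fun k hk => ha k (Finset.mem_insert_of_mem hk))]

include h in
theorem prod_mem_filt (l : List R) (hl : ∀ a ∈ l, a ∈ Φ 1) : l.prod ∈ Φ l.length := by
  induction l with
  | nil => exact h.top _
  | cons a l ih =>
    rw [List.prod_cons, List.length_cons, add_comm]
    exact h.mul _ _ _ _ (hl a (by simp)) (ih (fun b hb => hl b (by simp [hb])))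

theorem sb_prod (l : List R) (hl : ∀ a ∈ l, a ∈ Φ 1) :
    (l.map (sb h 1)).prod = sb h l.length l.prod := by
  induction l with
  | nil => simpa using (sb_one h).symm
  | cons a l ih =>
    have h1 : ∀ b ∈ l, b ∈ Φ 1 := fun b hb => hl b (by simp [hb])
    rw [List.map_cons, List.prod_cons, ih h1, sb_mul h (hl a (by simp)) (prod_mem_filt h l h1),
      List.prod_cons, List.length_cons, add_comm]

/-- the map induced on the Rees algebra by a filtered endomorphism -/
noncomputable def reesMap (φ : R →ₐ[F] R) (hφ : ∀ i, ∀ r ∈ Φ i, φ r ∈ Φ i) :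
    rees h →ₐ[F] rees h :=
  ((Polynomial.mapAlgHom φ).comp (rees h).val).codRestrict (rees h) (fun f i => by
    simpa using hφ i _ (f.2 i))

/-- the map induced on the graded algebra by a filtered endomorphism -/
noncomputable def grMap (φ : R →ₐ[F] R) (hφ : ∀ i, ∀ r ∈ Φ i, φ r ∈ Φ i) : Gr h →ₐ[F] Gr h :=
  Ideal.quotientMapₐ (reesId h) (reesMap h φ hφ) (fun f hf i => by
    have := hφ _ _ (hf i)
    change (Polynomial.mapAlgHom φ (f : R[X])).coeff i ∈ _
    simpa using this)

theorem grMap_sb (φ : R →ₐ[F] R) (hφ : ∀ i, ∀ r ∈ Φ i, φ r ∈ Φ i) {i : ℕ} {r : R}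
    (hr : r ∈ Φ i) : grMap h φ hφ (sb h i r) = sb h i (φ r) := by
  rw [sb_def h hr, sb_def h (hφ i r hr)]
  change Ideal.Quotient.mk (reesId h) (reesMap h φ hφ _) = _
  congr 1
  apply Subtype.ext
  change Polynomial.mapAlgHom φ (monomial i r) = _
  simp

end Cfsg.Agent.Zel.Grp
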