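import Cfsg.Agent.Zel.Grp.Main
import Cfsg.Agent.Zel.PI.Defs

/-!
# The associative theorem from the two boxes
-/

set_option autoImplicit false

universe u

namespace Cfsg.Agent.Zel.Grp

open Cfsg.Agent.Zel Cfsg.Agent.Zel.PI

theorem GrFam.cm_mem {q n : ℕ} {R α : Type*} [Ring R] {G : ZMod q → R → Prop} (h : GrFam q n G)
    {x : α → R} {deg : α → ZMod q} (hx : ∀ a, G (deg a) (x a)) (t : FreeMagma α) :
    G (dg deg t) (cm x t) := by
  induction t with
  | ih1 a => exact hx a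
  | ih2 s t hs ht => exact h.lie _ _ _ _ hs ht

theorem assocThmAll_of_boxes (hB : BZBox.{u}) (hZ : ZBox.{u}) : AssocThmAll.{u} :=
  fun p q n _ hq _ d R _ _ _ hG x deg hx =>
    hZ (AlgebraicClosure (ZMod p)) R d x (fun t => ⟨n, hG.nil _ _ (hG.cm_mem hx t)⟩)
      (hB (AlgebraicClosure (ZMod p)) R q n d x deg hq.pos
        (fun y hy => hG.sym _ (fun i => hy i ▸ hG.cm_mem hx (y i))))

end Cfsg.Agent.Zel.Grp
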