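import Cfsg.Agent.Zel.Grp.Lin

/-!
# The augmentation filtration and the dimension subgroups
-/

set_option autoImplicit false

namespace Cfsg.Agent.Zel.Grp

open Cfsg.Agent.Zel

/-- a finite `p`-group acting on a non-zero abelian group of exponent `p` fixes a non-zero element -/
theorem exists_fixed_ne_zero {p : ℕ} [Fact p.Prime] {H W : Type*} [Group H] [Finite H]
    (hH : IsPGroup p H) [AddCommGroup W] (σ : H →* AddMonoid.End W) (hp : ∀ w : W, p • w = 0)
    {w0 : W} (hw0 : w0 ≠ 0) : ∃ w : W, w ≠ 0 ∧ ∀ h, σ h w = w := by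
  let U : AddSubgroup W := AddSubgroup.closure (Set.range (fun h => σ h w0))
  have hU : ∀ h, ∀ w ∈ U, σ h w ∈ U := by
    intro h w hw
    induction hw using AddSubgroup.closure_induction with
    | mem w hw =>
      obtain ⟨g, rfl⟩ := hw
      exact AddSubgroup.subset_closure ⟨h * g, by simp⟩
    | zero => rw [map_zero]; exact zero_mem _
    | add a b _ _ ha hb => rw [map_add]; exact add_mem ha hb
    | neg a _ ha => rw [map_neg]; exact neg_mem ha
  have hfg : AddGroup.FG U := AddGroup.closure_finite_fg _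
  have hfin : Finite U := AddCommGroup.finite_of_fg_isAddTorsion U (fun w =>
    isOfFinAddOrder_iff_nsmul_eq_zero.2 ⟨p, (Fact.out : p.Prime).pos, Subtype.ext (hp w)⟩)
  let _ : MulAction H U :=
    { smul := fun h w => ⟨σ h w, hU h w w.2⟩
      one_smul := fun w => Subtype.ext (by change σ 1 w = w; simp)
      mul_smul := fun g h w => Subtype.ext (by change σ (g * h) w = σ g (σ h w); simp) }
  have hw0U : w0 ∈ U := AddSubgroup.subset_closure ⟨1, by simp⟩
  have hord : addOrderOf (⟨w0, hw0U⟩ : U) = p :=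
    addOrderOf_eq_prime (Subtype.ext (hp w0)) (fun h => hw0 (congrArg Subtype.val h))
  have hdvd : p ∣ Nat.card U := hord ▸ addOrderOf_dvd_natCard _
  obtain ⟨b, hb1, hb2⟩ := hH.exists_fixed_point_of_prime_dvd_card_of_fixed_point U hdvd
    (a := 0) (fun h => Subtype.ext (by change σ h 0 = 0; simp))
  exact ⟨b, fun h => hb2 (Subtype.ext h.symm), fun h => congrArg Subtype.val (hb1 h)⟩

variable (F : Type*) {R H : Type*} [Field F] [Ring R] [Algebra F R] [Group H] (ρ : H →* R)

/-- the span of the elements `h - 1` -/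
def augJ : Submodule F R := Submodule.span F (Set.range (fun h => ρ h - 1))

/-- the augmentation filtration -/
def augF : ℕ → Submodule F R
  | 0 => ⊤
  | i + 1 => augJ F ρ * augF i

variable {F ρ}

theorem sub_one_mem_augJ (h : H) : ρ h - 1 ∈ augJ F ρ := Submodule.subset_span ⟨h, rfl⟩

theorem top_mul_augJ (hs : Submodule.span F (Set.range ρ) = ⊤) :
    (⊤ : Submodule F R) * augJ F ρ ≤ augJ F ρ := by
  conv_lhs => rw [← hs, augJ, Submodule.span_mul_span]
  rw [Submodule.span_le]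
  rintro _ ⟨_, ⟨g, rfl⟩, _, ⟨h, rfl⟩, rfl⟩
  have : ρ g * (ρ h - 1) = (ρ (g * h) - 1) - (ρ g - 1) := by rw [map_mul]; noncomm_ring
  change ρ g * (ρ h - 1) ∈ augJ F ρ
  rw [this]
  exact sub_mem (sub_one_mem_augJ _) (sub_one_mem_augJ _)

theorem isFilt_augF (hs : Submodule.span F (Set.range ρ) = ⊤) : IsFilt (augF F ρ) where
  top := fun _ => trivial
  anti := by
    intro i
    induction i with
    | zero => exact le_top
    | succ i ih => exact mul_le_mul' le_rfl ih
  mul := by
    have h : ∀ i j, augF F ρ i * augF F ρ j ≤ augF F ρ (i + j) := by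
      intro i j
      induction i with
      | zero =>
        cases j with
        | zero => exact le_top
        | succ j =>
          rw [zero_add, augF, augF, ← mul_assoc]
          exact mul_le_mul' (top_mul_augJ hs) le_rfl
      | succ i ih =>
        rw [show i + 1 + j = (i + j) + 1 by omega, augF, augF, mul_assoc]
        exact mul_le_mul' le_rfl ih
    exact fun i j a b ha hb => h i j (Submodule.mul_mem_mul ha hb)

theorem sub_one_mem_augF (h : H) : ρ h - 1 ∈ augF F ρ 1 := by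
  have := Submodule.mul_mem_mul (sub_one_mem_augJ (F := F) (ρ := ρ) h)
    (Submodule.mem_top (R := F) (x := (1 : R)))
  rwa [mul_one] at this

/-- the filtration of a finite `p`-group does not stabilise before it reaches zero -/
theorem augF_eq_bot {p : ℕ} [Fact p.Prime] [CharP F p] [Finite H] (hH : IsPGroup p H)
    (hs : Submodule.span F (Set.range ρ) = ⊤) {m : ℕ} (hm : augF F ρ m ≤ augF F ρ (m + 1)) :
    augF F ρ m = ⊥ := by
  by_contra hne
  let M := augF F ρ m
  have hM : ∀ g : H, ∀ v ∈ M, LinearMap.mulLeft F (ρ g) v ∈ M :=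
    fun g v hv => (isFilt_augF hs).mul_left _ hv
  let τ : H → M →ₗ[F] M := fun g => (LinearMap.mulLeft F (ρ g)).restrict (hM g)
  let σ : H →* AddMonoid.End (Module.Dual F M) :=
    { toFun := fun g => (LinearMap.dualMap (τ g⁻¹)).toAddMonoidHom
      map_one' := by
        ext l v
        change l (τ 1⁻¹ v) = l v
        congr 1
        apply Subtype.ext
        simp [τ]
      map_mul' := by
        intro g h
        ext l v
        change l (τ (g * h)⁻¹ v) = l (τ h⁻¹ (τ g⁻¹ v))
        congr 1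
        apply Subtype.ext
        simp [τ] }
  have hnt : Nontrivial M := Submodule.nontrivial_iff_ne_bot.2 hne
  obtain ⟨l0, hl0⟩ := exists_ne (0 : Module.Dual F M)
  obtain ⟨l, hl1, hl2⟩ := exists_fixed_ne_zero hH σ (fun w => by
    rw [← Nat.cast_smul_eq_nsmul F, CharP.cast_eq_zero, zero_smul]) hl0
  apply hl1
  have hkey : ∀ v ∈ augJ F ρ * M, ∃ hv : v ∈ M, l ⟨v, hv⟩ = 0 := by
    intro v hv
    refine Submodule.mul_induction_on hv ?_ ?_
    · intro a ha b hb
      induction ha using Submodule.span_induction with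
      | mem a ha =>
        obtain ⟨g, rfl⟩ := ha
        have h1 : l (τ g ⟨b, hb⟩) = l ⟨b, hb⟩ := by
          have := LinearMap.congr_fun (hl2 g⁻¹) ⟨b, hb⟩
          change l (τ g⁻¹⁻¹ ⟨b, hb⟩) = _ at this
          rwa [inv_inv] at this
        refine ⟨(isFilt_augF hs).mul_left _ hb, ?_⟩
        rw [← sub_eq_zero, ← map_sub] at h1
        rw [← h1]
        congr 1
        apply Subtype.ext
        simp [τ, sub_mul]
      | zero => exact ⟨by rw [zero_mul]; exact zero_mem _, by simp [← ZeroMemClass.zero_def]⟩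
      | add a a' _ _ ha ha' =>
        obtain ⟨h1, h2⟩ := ha
        obtain ⟨h3, h4⟩ := ha'
        refine ⟨(isFilt_augF hs).mul_left _ hb, ?_⟩
        have : l (⟨a * b, h1⟩ + ⟨a' * b, h3⟩) = 0 := by rw [map_add, h2, h4, add_zero]
        rw [← this]
        congr 1
        exact Subtype.ext (add_mul _ _ _)
      | smul c a _ ha =>
        obtain ⟨h1, h2⟩ := ha
        refine ⟨(isFilt_augF hs).mul_left _ hb, ?_⟩
        have : l (c • ⟨a * b, h1⟩) = 0 := by rw [map_smul, h2, smul_zero]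
        rw [← this]
        congr 1
        exact Subtype.ext (smul_mul_assoc _ _ _)
    · rintro a b ⟨h1, h2⟩ ⟨h3, h4⟩
      refine ⟨add_mem h1 h3, ?_⟩
      have : l (⟨a, h1⟩ + ⟨b, h3⟩) = 0 := by rw [map_add, h2, h4, add_zero]
      exact this
  ext v
  obtain ⟨_, h⟩ := hkey v (hm v.2)
  exact h

/-- the dimension subgroups -/
def dimSub (hs : Submodule.span F (Set.range ρ) = ⊤) (i : ℕ) : Subgroup H where
  carrier := {h | ρ h - 1 ∈ augF F ρ i}
  mul_mem' := by
    intro g h hg hh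
    have : ρ (g * h) - 1 = ρ g * (ρ h - 1) + (ρ g - 1) := by rw [map_mul]; noncomm_ring
    change ρ (g * h) - 1 ∈ augF F ρ i
    rw [this]
    exact add_mem ((isFilt_augF hs).mul_left _ hh) hg
  one_mem' := by change ρ 1 - 1 ∈ augF F ρ i; simp
  inv_mem' := by
    intro g hg
    have : ρ g⁻¹ - 1 = - (ρ g⁻¹ * (ρ g - 1)) := by
      rw [mul_sub, ← map_mul, inv_mul_cancel, map_one]; noncomm_ring
    change ρ g⁻¹ - 1 ∈ augF F ρ i
    rw [this]
    exact neg_mem ((isFilt_augF hs).mul_left _ hg)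

variable (hs : Submodule.span F (Set.range ρ) = ⊤)

theorem mem_dimSub {i : ℕ} {h : H} : h ∈ dimSub hs i ↔ ρ h - 1 ∈ augF F ρ i := Iff.rfl

theorem mem_dimSub_one (h : H) : h ∈ dimSub hs 1 := sub_one_mem_augF h

theorem dimSub_anti (i : ℕ) : dimSub hs (i + 1) ≤ dimSub hs i :=
  fun _ hg => (isFilt_augF hs).anti i hg

/-- the symbol of a group element -/
noncomputable def xi (i : ℕ) (g : H) : Gr (isFilt_augF hs) := sb (isFilt_augF hs) i (ρ g - 1)

theorem xi_eq_zero_iff {i : ℕ} {g : H} (hg : g ∈ dimSub hs i) :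
    xi hs i g = 0 ↔ g ∈ dimSub hs (i + 1) := sb_eq_zero_iff _ hg

theorem xi_one (i : ℕ) : xi hs i 1 = 0 := by simp [xi, sb_zero]

theorem xi_mul {i : ℕ} (hi : 1 ≤ i) {g h : H} (hg : g ∈ dimSub hs i) (hh : h ∈ dimSub hs i) :
    xi hs i (g * h) = xi hs i g + xi hs i h := by
  unfold xi
  rw [← sb_add _ hg hh]
  refine sb_congr _ (mul_mem hg hh) (add_mem hg hh) ?_
  have : ρ (g * h) - 1 - (ρ g - 1 + (ρ h - 1)) = (ρ g - 1) * (ρ h - 1) := by
    rw [map_mul]; noncomm_ring
  rw [this]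
  exact (isFilt_augF hs).le (by omega) ((isFilt_augF hs).mul _ _ _ _ hg hh)

theorem xi_pow {i : ℕ} (hi : 1 ≤ i) {g : H} (hg : g ∈ dimSub hs i) (n : ℕ) :
    xi hs i (g ^ n) = n • xi hs i g := by
  induction n with
  | zero => simp [xi_one]
  | succ n ih => rw [pow_succ, xi_mul hs hi (pow_mem hg n) hg, ih, succ_nsmul]

theorem xi_inv {i : ℕ} (hi : 1 ≤ i) {g : H} (hg : g ∈ dimSub hs i) :
    xi hs i g⁻¹ = - xi hs i g := by
  rw [eq_neg_iff_add_eq_zero, ← xi_mul hs hi (inv_mem hg) hg, inv_mul_cancel, xi_one]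

theorem comm_sub_one (g h : H) : ρ (g * h * g⁻¹ * h⁻¹) - 1 =
    ((ρ g - 1) * (ρ h - 1) - (ρ h - 1) * (ρ g - 1)) * ρ (g⁻¹ * h⁻¹) := by
  have h1 : ρ h * ρ g * ρ (g⁻¹ * h⁻¹) = 1 := by rw [← map_mul, ← map_mul]; simp
  have h2 : (ρ g - 1) * (ρ h - 1) - (ρ h - 1) * (ρ g - 1) = ρ g * ρ h - ρ h * ρ g := by
    noncomm_ring
  rw [h2, sub_mul, h1, ← map_mul, ← map_mul, mul_assoc (g * h)]

theorem lie_mem_augF {i j : ℕ} {g h : H} (hg : g ∈ dimSub hs i) (hh : h ∈ dimSub hs j) :
    (ρ g - 1) * (ρ h - 1) - (ρ h - 1) * (ρ g - 1) ∈ augF F ρ (i + j) :=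
  sub_mem ((isFilt_augF hs).mul _ _ _ _ hg hh)
    (add_comm i j ▸ (isFilt_augF hs).mul _ _ _ _ hh hg)

theorem comm_mem_dimSub {i j : ℕ} {g h : H} (hg : g ∈ dimSub hs i) (hh : h ∈ dimSub hs j) :
    g * h * g⁻¹ * h⁻¹ ∈ dimSub hs (i + j) := by
  rw [mem_dimSub, comm_sub_one]
  exact (isFilt_augF hs).mul_right (lie_mem_augF hs hg hh) _

theorem xi_comm {i j : ℕ} {g h : H} (hg : g ∈ dimSub hs i) (hh : h ∈ dimSub hs j) :
    xi hs i g * xi hs j h - xi hs j h * xi hs i g = xi hs (i + j) (g * h * g⁻¹ * h⁻¹) := by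
  unfold xi
  rw [sb_mul _ hg hh, sb_mul _ hh hg, add_comm j i,
    ← sb_sub _ ((isFilt_augF hs).mul _ _ _ _ hg hh)
      (add_comm i j ▸ (isFilt_augF hs).mul _ _ _ _ hh hg)]
  refine sb_congr _ (lie_mem_augF hs hg hh) (comm_mem_dimSub hs hg hh) ?_
  rw [comm_sub_one]
  have : ∀ a u : R, a - a * u = - (a * (u - 1)) := fun a u => by noncomm_ring
  rw [this]
  exact neg_mem ((isFilt_augF hs).mul _ _ _ _ (lie_mem_augF hs hg hh) (sub_one_mem_augF _))

theorem sub_one_pow_eq_zero {p k : ℕ} [Fact p.Prime] [CharP R p] {g : H} (hg : g ^ p ^ k = 1) :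
    (ρ g - 1) ^ p ^ k = 0 := by
  rw [sub_pow_char_pow_of_commute _ _ (Commute.one_right _), ← map_pow, hg, map_one, one_pow,
    sub_self]

theorem xi_pow_eq_zero {p k : ℕ} [Fact p.Prime] [CharP R p] {i : ℕ} {g : H}
    (hg : g ∈ dimSub hs i) (h1 : g ^ p ^ k = 1) : xi hs i g ^ p ^ k = 0 := by
  unfold xi
  rw [sb_pow _ hg, sub_one_pow_eq_zero h1, sb_zero]

/-- the linearised identity for the symbols of the elements of a subgroup of exponent `p ^ k` -/
theorem symProd_xi_eq_zero {p k : ℕ} [Fact p.Prime] [CharP R p] (Q : Subgroup H)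
    (hQ : ∀ g ∈ Q, g ^ p ^ k = 1) {ι : Type*} [Fintype ι] [DecidableEq ι] (w : ι → ℕ)
    (hw : ∀ j, 1 ≤ w j) (g : ι → H) (hg : ∀ j, g j ∈ dimSub hs (w j)) (hgQ : ∀ j, g j ∈ Q)
    (S : Finset ι) (hS : S.card = p ^ k) :
    symProd (fun j => xi hs (w j) (g j)) (p ^ k) S = 0 := by
  refine symProd_sb_eq_zero (isFilt_augF hs) hw (y := fun j => ρ (g j) - 1) hg (fun l T => ?_) S hS
  have h1 : (l.map (fun j => if j ∈ T then 1 + (ρ (g j) - 1) else 1)).prod =
      ρ (l.map (fun j => if j ∈ T then g j else 1)).prod := by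
    rw [map_list_prod, List.map_map]
    congr 1
    refine List.map_congr_left (fun j _ => ?_)
    simp only [Function.comp]
    split_ifs <;> simp
  rw [h1]
  refine sub_one_pow_eq_zero (hQ _ (Q.list_prod_mem (fun a ha => ?_)))
  obtain ⟨j, -, rfl⟩ := List.mem_map.1 ha
  split_ifs
  · exact hgQ j
  · exact one_mem _

/-- an algebra endomorphism normalising the group preserves the filtration -/
theorem map_mem_augF (φ : R →ₐ[F] R) (α : H → H) (hφ : ∀ h, φ (ρ h) = ρ (α h)) (i : ℕ) :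
    ∀ r ∈ augF F ρ i, φ r ∈ augF F ρ i := by
  induction i with
  | zero => exact fun _ _ => trivial
  | succ i ih =>
    intro r hr
    refine Submodule.mul_induction_on hr ?_ ?_
    · intro a ha b hb
      rw [map_mul]
      refine Submodule.mul_mem_mul ?_ (ih b hb)
      induction ha using Submodule.span_induction with
      | mem a ha =>
        obtain ⟨g, rfl⟩ := ha
        rw [map_sub, map_one, hφ]; exact sub_one_mem_augJ _
      | zero => rw [map_zero]; exact zero_mem _
      | add a a' _ _ ha ha' => rw [map_add]; exact add_mem ha ha'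
      | smul c a _ ha => rw [map_smul]; exact Submodule.smul_mem _ _ ha
    · intro a b ha hb
      rw [map_add]; exact add_mem ha hb

end Cfsg.Agent.Zel.Grp
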