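import Cfsg.Agent.Zel.Iface

/-!
# Calculus of the symmetrised products `symProd`
-/

set_option autoImplicit false

namespace Cfsg.Agent.Zel.Grp

open Cfsg.Agent.Zel

variable {R ι : Type*} [Ring R] [DecidableEq ι]

theorem sum_erase_comm {M : Type*} [AddCommMonoid M] (S : Finset ι) (f : ι → ι → M) :
    ∑ x ∈ S, ∑ z ∈ S.erase x, f x z = ∑ z ∈ S, ∑ x ∈ S.erase z, f x z := by
  refine Finset.sum_comm' (fun x z => ?_)
  simp only [Finset.mem_erase]
  constructor
  · rintro ⟨h1, h2, h3⟩; exact ⟨⟨fun h => h2 h.symm, h1⟩, h3⟩
  · rintro ⟨⟨h1, h2⟩, h3⟩; exact ⟨h2, fun h => h1 h.symm, h3⟩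

theorem symProd_succ' (y : ι → R) (k : ℕ) (S : Finset ι) :
    symProd y (k + 1) S = ∑ j ∈ S, symProd y k (S.erase j) * y j := by
  induction k generalizing S with
  | zero => simp [symProd]
  | succ k ih =>
    rw [symProd_succ]
    simp only [ih, Finset.mul_sum]
    rw [sum_erase_comm]
    refine Finset.sum_congr rfl (fun z _ => ?_)
    rw [← ih, symProd_succ, Finset.sum_mul]
    refine Finset.sum_congr rfl (fun x _ => ?_)
    rw [mul_assoc, Finset.erase_right_comm]

theorem symProd_congr {y z : ι → R} {k : ℕ} {S : Finset ι} (h : ∀ j ∈ S, y j = z j) :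
    symProd y k S = symProd z k S := by
  induction k generalizing S with
  | zero => rfl
  | succ k ih =>
    rw [symProd_succ, symProd_succ]
    refine Finset.sum_congr rfl (fun j hj => ?_)
    rw [h j hj, ih (fun i hi => h i (Finset.mem_of_mem_erase hi))]

theorem map_symProd {R' F : Type*} [Ring R'] [FunLike F R R'] [RingHomClass F R R'] (f : F)
    (y : ι → R) (k : ℕ) (S : Finset ι) : f (symProd y k S) = symProd (fun j => f (y j)) k S := by
  induction k generalizing S with
  | zero => exact map_one f
  | succ k ih =>
    rw [symProd_succ, symProd_succ, map_sum]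
    exact Finset.sum_congr rfl (fun j _ => by rw [map_mul, ih])

theorem symProd_map {κ : Type*} [DecidableEq κ] (e : κ ↪ ι) (y : ι → R) (k : ℕ) (S : Finset κ) :
    symProd y k (S.map e) = symProd (fun j => y (e j)) k S := by
  induction k generalizing S with
  | zero => rfl
  | succ k ih =>
    rw [symProd_succ, symProd_succ, Finset.sum_map]
    refine Finset.sum_congr rfl (fun j _ => ?_)
    rw [← Finset.map_erase, ih]

/-- vanishing in degree `n` gives vanishing in all larger degrees -/
theorem symProd_eq_zero_of_le {y : ι → R} {n : ℕ} {U : Finset ι}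
    (h : ∀ T ⊆ U, T.card = n → symProd y n T = 0) {k : ℕ} (hk : n ≤ k) {S : Finset ι}
    (hS : S ⊆ U) (hc : S.card = k) : symProd y k S = 0 := by
  induction k, hk using Nat.le_induction generalizing S with
  | base => exact h S hS hc
  | succ k hk ih =>
    rw [symProd_succ]
    refine Finset.sum_eq_zero (fun j hj => ?_)
    rw [ih ((Finset.erase_subset _ _).trans hS) (by rw [Finset.card_erase_of_mem hj, hc]; rfl),
      mul_zero]

/-- from the statement for families indexed by `Fin n` to subsets of any index type -/
theorem symProd_eq_zero_of_fin {P : R → Prop} {n : ℕ}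
    (h : ∀ y : Fin n → R, (∀ i, P (y i)) → symProd y n Finset.univ = 0) (y : ι → R)
    (T : Finset ι) (hT : T.card = n) (hy : ∀ j ∈ T, P (y j)) : symProd y n T = 0 := by
  let e : Fin n ≃ T := (T.equivFinOfCardEq hT).symm
  let f : Fin n ↪ ι := e.toEmbedding.trans (Function.Embedding.subtype _)
  have hf : Finset.univ.map f = T := by
    ext j
    simp only [Finset.mem_map, Finset.mem_univ, true_and]
    constructor
    · rintro ⟨i, rfl⟩; exact (e i).2
    · intro hj; exact ⟨e.symm ⟨j, hj⟩, by simp [f]⟩
  rw [← hf, symProd_map]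
  exact h _ (fun i => hy _ (e i).2)

/-- mixed symmetrised products -/
def mixQ (a b : ι → R) : ℕ → ℕ → Finset ι → R
  | 0, j, S => symProd b j S
  | i + 1, j, S => ∑ x ∈ S, a x * mixQ a b i j (S.erase x)

def mixW (a b : ι → R) : ℕ → ℕ → ℕ → Finset ι → R
  | 0, i, j, S => mixQ a b i j S
  | k + 1, i, j, S => ∑ x ∈ S, (a x + b x) * mixW a b k i j (S.erase x)

theorem mixQ_succ_right {a b : ι → R} (hab : ∀ x z, Commute (a x) (b z)) (i j : ℕ)
    (S : Finset ι) : mixQ a b i (j + 1) S = ∑ x ∈ S, b x * mixQ a b i j (S.erase x) := by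
  induction i generalizing S with
  | zero => rfl
  | succ i ih =>
    simp only [mixQ, ih, Finset.mul_sum]
    rw [sum_erase_comm]
    refine Finset.sum_congr rfl (fun z _ => Finset.sum_congr rfl (fun x _ => ?_))
    rw [← mul_assoc, ← mul_assoc, (hab x z).eq, Finset.erase_right_comm]

theorem mixQ_zero_right (a b : ι → R) (i : ℕ) (S : Finset ι) :
    mixQ a b i 0 S = symProd a i S := by
  induction i generalizing S with
  | zero => rfl
  | succ i ih => simp only [mixQ, ih, symProd_succ]

theorem mixW_succ {a b : ι → R} (hab : ∀ x z, Commute (a x) (b z)) (k i j : ℕ) (S : Finset ι) :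
    mixW a b (k + 1) i j S = mixW a b k (i + 1) j S + mixW a b k i (j + 1) S := by
  induction k generalizing S with
  | zero =>
    simp only [mixW, add_mul, Finset.sum_add_distrib]
    rw [mixQ_succ_right hab]
    rfl
  | succ k ih =>
    rw [mixW]
    simp only [ih, mul_add, Finset.sum_add_distrib]
    simp only [mixW]

theorem mixW_zero_zero (a b : ι → R) (k : ℕ) (S : Finset ι) :
    mixW a b k 0 0 S = symProd (fun x => a x + b x) k S := by
  induction k generalizing S with
  | zero => rfl
  | succ k ih => simp only [mixW, ih, symProd_succ]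

/-- two commuting families with vanishing symmetrised products -/
theorem symProd_add_eq_zero {a b : ι → R} (hab : ∀ x z, Commute (a x) (b z)) {n : ℕ}
    {U : Finset ι} (ha : ∀ T ⊆ U, T.card = n → symProd a n T = 0)
    (hb : ∀ T ⊆ U, T.card = n → symProd b n T = 0) {k : ℕ} (hk : 2 * n ≤ k) {S : Finset ι}
    (hS : S ⊆ U) (hc : S.card = k) : symProd (fun x => a x + b x) k S = 0 := by
  have h1 : ∀ i j (S : Finset ι), S ⊆ U → S.card = i + j → n ≤ j → mixQ a b i j S = 0 := by
    intro i j
    induction i with
    | zero => intro S hS hc hj; exact symProd_eq_zero_of_le hb hj hS (by simpa using hc)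
    | succ i ih =>
      intro S hS hc hj
      refine Finset.sum_eq_zero (fun x hx => ?_)
      rw [ih _ ((Finset.erase_subset _ _).trans hS)
        (by rw [Finset.card_erase_of_mem hx, hc]; omega) hj, mul_zero]
  have h2 : ∀ i j (S : Finset ι), S ⊆ U → S.card = i + j → n ≤ i → mixQ a b i j S = 0 := by
    intro i j
    induction j with
    | zero =>
      intro S hS hc hi
      rw [mixQ_zero_right]; exact symProd_eq_zero_of_le ha hi hS (by simpa using hc)
    | succ j ih =>
      intro S hS hc hi
      rw [mixQ_succ_right hab]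
      refine Finset.sum_eq_zero (fun x hx => ?_)
      rw [ih _ ((Finset.erase_subset _ _).trans hS)
        (by rw [Finset.card_erase_of_mem hx, hc]; omega) hi, mul_zero]
  have h3 : ∀ k i j (S : Finset ι), S ⊆ U → S.card = k + i + j → 2 * n ≤ k + i + j →
      mixW a b k i j S = 0 := by
    intro k
    induction k with
    | zero =>
      intro i j S hS hc hk
      rcases le_or_gt n j with hj | hj
      · exact h1 i j S hS (by simpa using hc) hj
      · exact h2 i j S hS (by simpa using hc) (by omega)
    | succ k ih =>
      intro i j S hS hc hk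
      rw [mixW_succ hab, ih _ _ S hS (by omega) (by omega), ih _ _ S hS (by omega) (by omega),
        add_zero]
  rw [← mixW_zero_zero]
  exact h3 k 0 0 S hS (by simpa using hc) (by simpa using hk)

theorem symProd_neg (y : ι → R) (k : ℕ) (S : Finset ι) :
    symProd (fun j => - y j) k S = (-1) ^ k * symProd y k S := by
  induction k generalizing S with
  | zero => simp [symProd]
  | succ k ih =>
    rw [symProd_succ, symProd_succ, Finset.mul_sum]
    refine Finset.sum_congr rfl (fun j _ => ?_)
    rw [ih, pow_succ, ← mul_assoc, ← mul_assoc, mul_neg_one, neg_mul, neg_mul, neg_mul, neg_mul,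
      ((Commute.neg_one_left (y j)).pow_left k).eq]

section Mul

variable {F A : Type*} [CommRing F] [Ring A] [Algebra F A]

theorem symProd_mulLeft (y : ι → A) (k : ℕ) (S : Finset ι) :
    symProd (fun j => (LinearMap.mulLeft F (y j) : Module.End F A)) k S =
      LinearMap.mulLeft F (symProd y k S) := by
  induction k generalizing S with
  | zero => ext z; simp [symProd]
  | succ k ih =>
    ext z
    simp [symProd_succ, ih, Finset.sum_mul, mul_assoc]

theorem symProd_mulRight (y : ι → A) (k : ℕ) (S : Finset ι) :
    symProd (fun j => (LinearMap.mulRight F (y j) : Module.End F A)) k S =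
      LinearMap.mulRight F (symProd y k S) := by
  induction k generalizing S with
  | zero => ext z; simp [symProd]
  | succ k ih =>
    ext z
    rw [symProd_succ, symProd_succ']
    simp [ih, Finset.mul_sum, mul_assoc]

attribute [local instance 100] LieRing.ofAssociativeRing

theorem ad_eq_add (c : A) : LieAlgebra.ad F A c =
    (LinearMap.mulLeft F c : Module.End F A) + - (LinearMap.mulRight F c : Module.End F A) := by
  ext z; simp [Ring.lie_def, sub_eq_add_neg]

theorem commute_left_right (c e : A) :
    Commute (LinearMap.mulLeft F c : Module.End F A) (- (LinearMap.mulRight F e : Module.End F A)) :=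
  (LinearMap.commute_mulLeft_right c e).neg_right

/-- the linearised identity passes from an algebra to its inner derivations -/
theorem symProd_ad_eq_zero {y : ι → A} {n : ℕ} {U : Finset ι}
    (h : ∀ T ⊆ U, T.card = n → symProd y n T = 0) {k : ℕ} (hk : 2 * n ≤ k) {S : Finset ι}
    (hS : S ⊆ U) (hc : S.card = k) : symProd (fun j => LieAlgebra.ad F A (y j)) k S = 0 := by
  simp only [ad_eq_add]
  refine symProd_add_eq_zero (fun x z => commute_left_right _ _) (U := U) (n := n) ?_ ?_ hk hS hc
  · intro T hT hc
    rw [symProd_mulLeft, h T hT hc]; ext z; simp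
  · intro T hT hc
    rw [symProd_neg, symProd_mulRight, h T hT hc]; ext z; simp

theorem ad_pow_eq_zero {c : A} {n : ℕ} (h : c ^ n = 0) {k : ℕ} (hk : 2 * n ≤ k) :
    LieAlgebra.ad F A c ^ k = 0 := by
  rw [ad_eq_add]
  refine (commute_left_right c c).add_pow_eq_zero_of_add_le_succ_of_pow_eq_zero (m := n) (n := n)
    ?_ ?_ (by omega)
  · rw [LinearMap.pow_mulLeft, h]; ext z; simp
  · rw [neg_pow, LinearMap.pow_mulRight, h]; ext z; simp

end Mul

end Cfsg.Agent.Zel.Grp
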