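import Cfsg.Agent.Zel.Grp.Filt
import Cfsg.Agent.Zel.Grp.Sym

/-!
# Linearisation of the identity `(g - 1) ^ n = 0` in a filtered algebra
-/

set_option autoImplicit false

namespace Cfsg.Agent.Zel.Grp

open Cfsg.Agent.Zel

section Zeta

variable {R ι : Type*} [Ring R] [DecidableEq ι]

/-- summation over subsets -/
def zeta (c : Finset ι → R) (T : Finset ι) : R := ∑ A ∈ T.powerset, c A

/-- the covering product -/
def cover (c d : Finset ι → R) (S : Finset ι) : R :=
  ∑ p ∈ (S.powerset ×ˢ S.powerset).filter (fun p => p.1 ∪ p.2 = S), c p.1 * d p.2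

theorem zeta_cover (c d : Finset ι → R) (T : Finset ι) :
    zeta (cover c d) T = zeta c T * zeta d T := by
  unfold zeta
  rw [Finset.sum_mul_sum, ← Finset.sum_product',
    ← Finset.sum_fiberwise_of_maps_to (s := T.powerset ×ˢ T.powerset) (t := T.powerset)
      (g := fun p => p.1 ∪ p.2)]
  · refine Finset.sum_congr rfl (fun S hS => ?_)
    unfold cover
    refine Finset.sum_congr ?_ (fun _ _ => rfl)
    ext p
    simp only [Finset.mem_filter, Finset.mem_product, Finset.mem_powerset] at hS ⊢
    constructor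
    · rintro ⟨⟨h1, h2⟩, h3⟩; exact ⟨⟨h1.trans hS, h2.trans hS⟩, h3⟩
    · rintro ⟨-, h3⟩
      exact ⟨⟨h3 ▸ Finset.subset_union_left, h3 ▸ Finset.subset_union_right⟩, h3⟩
  · intro p hp
    simp only [Finset.mem_product, Finset.mem_powerset] at hp ⊢
    exact Finset.union_subset hp.1 hp.2

theorem eq_zero_of_zeta {c : Finset ι → R} (h : ∀ T, zeta c T = 0) (S : Finset ι) : c S = 0 := by
  induction S using Finset.strongInduction with
  | H S ih =>
    have h1 := h S
    unfold zeta at h1
    rw [← Finset.add_sum_erase _ _ (Finset.mem_powerset_self S), Finset.sum_eq_zero, add_zero] at h1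
    · exact h1
    · intro A hA
      simp only [Finset.mem_erase, Finset.mem_powerset] at hA
      exact ih A (Finset.ssubset_iff_subset_ne.2 ⟨hA.2, hA.1⟩)

omit [DecidableEq ι] in
theorem zeta_empty (c : Finset ι → R) : zeta c ∅ = c ∅ := by simp [zeta]

theorem zeta_single (c : Finset ι → R) (j : ι) : zeta c {j} = c ∅ + c {j} := by
  unfold zeta
  rw [show ({j} : Finset ι).powerset = {∅, {j}} from by
    ext A; simp [Finset.subset_singleton_iff]]
  rw [Finset.sum_pair (Finset.singleton_ne_empty j).symm]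

/-- the unit of the covering product -/
def dl (A : Finset ι) : R := if A = ∅ then 1 else 0

theorem zeta_dl (T : Finset ι) : zeta (dl : Finset ι → R) T = 1 := by
  simp [zeta, dl]

/-- covering powers -/
def cpow (c : Finset ι → R) : ℕ → Finset ι → R
  | 0 => dl
  | k + 1 => cover c (cpow c k)

theorem zeta_cpow (c : Finset ι → R) (k : ℕ) (T : Finset ι) :
    zeta (cpow c k) T = zeta c T ^ k := by
  induction k with
  | zero => rw [pow_zero]; exact zeta_dl T
  | succ k ih => rw [cpow, zeta_cover, ih, pow_succ']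

theorem prod_ite_not_mem (f : ι → R) (T : Finset ι) (l : List ι) (hl : ∀ j ∈ l, j ∉ T) :
    (l.map (fun j => if j ∈ T then f j else 1)).prod = 1 := by
  induction l with
  | nil => rfl
  | cons a l ih =>
    rw [List.map_cons, List.prod_cons, if_neg (hl a (by simp)),
      ih (fun j hj => hl j (by simp [hj])), one_mul]

theorem prod_ite_single (f : ι → R) (j : ι) (l : List ι) (hl : l.Nodup) (hj : j ∈ l) :
    (l.map (fun i => if i ∈ ({j} : Finset ι) then f i else 1)).prod = f j := by
  induction l with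
  | nil => simp at hj
  | cons a l ih =>
    rw [List.nodup_cons] at hl
    rw [List.map_cons, List.prod_cons]
    by_cases ha : a = j
    · subst ha
      rw [if_pos (Finset.mem_singleton_self _), prod_ite_not_mem, mul_one]
      intro i hi hi'
      rw [Finset.mem_singleton] at hi'
      exact hl.1 (hi' ▸ hi)
    · rw [if_neg (by simpa using ha), one_mul]
      exact ih hl.2 ((List.mem_cons.1 hj).resolve_left (fun h => ha h.symm))

end Zeta

variable {F R ι : Type*} [CommRing F] [Ring R] [Algebra F R] [DecidableEq ι]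
  {Φ : ℕ → Submodule F R} (h : IsFilt Φ) {w : ι → ℕ}

include h

theorem cover_mem {c d : Finset ι → R} (hc : ∀ A, c A ∈ Φ (∑ j ∈ A, w j))
    (hd : ∀ A, d A ∈ Φ (∑ j ∈ A, w j)) (S : Finset ι) : cover c d S ∈ Φ (∑ j ∈ S, w j) := by
  refine Submodule.sum_mem _ (fun p hp => ?_)
  have h1 := (Finset.mem_filter.1 hp).2
  refine h.le ?_ (h.mul _ _ _ _ (hc p.1) (hd p.2))
  rw [← h1, ← Finset.sum_union_inter]
  omega

theorem dl_mem (A : Finset ι) : (dl A : R) ∈ Φ (∑ j ∈ A, w j) := by
  unfold dl
  split_ifs with hA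
  · rw [hA]; exact h.top _
  · exact zero_mem _

theorem cpow_mem {c : Finset ι → R} (hc : ∀ A, c A ∈ Φ (∑ j ∈ A, w j)) (k : ℕ) (S : Finset ι) :
    cpow c k S ∈ Φ (∑ j ∈ S, w j) := by
  induction k generalizing S with
  | zero => exact dl_mem h S
  | succ k ih => exact cover_mem h hc ih S

theorem exists_coeff_prod {y : ι → R} (hy : ∀ j, y j ∈ Φ (w j)) (l : List ι) :
    ∃ c : Finset ι → R, (∀ A, c A ∈ Φ (∑ j ∈ A, w j)) ∧
      ∀ T, zeta c T = (l.map (fun j => if j ∈ T then 1 + y j else 1)).prod := by
  induction l with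
  | nil => exact ⟨dl, dl_mem h, fun T => zeta_dl T⟩
  | cons a l ih =>
    obtain ⟨d, hd1, hd2⟩ := ih
    refine ⟨cover (fun A => dl A + if A = {a} then y a else 0) d, cover_mem h (fun A => ?_) hd1,
      fun T => ?_⟩
    · refine add_mem (dl_mem h A) ?_
      split_ifs with hA
      · rw [hA, Finset.sum_singleton]; exact hy a
      · exact zero_mem _
    · rw [zeta_cover, hd2, List.map_cons, List.prod_cons]
      congr 1
      have := zeta_dl (R := R) T
      unfold zeta at this ⊢
      rw [Finset.sum_add_distrib, this, Finset.sum_ite_eq']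
      simp only [Finset.mem_powerset, Finset.singleton_subset_iff]
      split_ifs <;> simp

theorem cpow_lead (hw : ∀ j, 1 ≤ w j) {c : Finset ι → R} (hc : ∀ A, c A ∈ Φ (∑ j ∈ A, w j))
    (hc0 : c ∅ = 0) (k : ℕ) (S : Finset ι) :
    (S.card < k → cpow c k S ∈ Φ (∑ j ∈ S, w j + 1)) ∧
      (S.card = k → cpow c k S - symProd (fun j => c {j}) k S ∈ Φ (∑ j ∈ S, w j + 1)) := by
  induction k generalizing S with
  | zero =>
    refine ⟨fun hk => absurd hk (Nat.not_lt_zero _), fun hk => ?_⟩
    rw [Finset.card_eq_zero.1 hk]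
    simp [cpow, dl, symProd]
  | succ k ih =>
    -- the terms that do not contribute
    have hterm : ∀ A B : Finset ι, A ∪ B = S → S.card ≤ k + 1 →
        (A = ∅ ∨ ¬ Disjoint A B ∨ B.card < k) →
        c A * cpow c k B ∈ Φ (∑ j ∈ S, w j + 1) := by
      intro A B hAB hS hcase
      have hsum : ∑ j ∈ S, w j + ∑ j ∈ A ∩ B, w j = ∑ j ∈ A, w j + ∑ j ∈ B, w j := by
        rw [← hAB, Finset.sum_union_inter]
      rcases hcase with h1 | h1 | h1
      · rw [h1, hc0, zero_mul]; exact zero_mem _
      · obtain ⟨j, hj1, hj2⟩ := Finset.not_disjoint_iff.1 h1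
        have h2 : w j ≤ ∑ j ∈ A ∩ B, w j :=
          Finset.single_le_sum (f := w) (fun _ _ => Nat.zero_le _) (Finset.mem_inter.2 ⟨hj1, hj2⟩)
        have := hw j
        exact h.le (by omega) (h.mul _ _ _ _ (hc A) (cpow_mem h hc k B))
      · exact h.le (by omega) (h.mul _ _ _ _ (hc A) ((ih B).1 h1))
    constructor
    · intro hS
      refine Submodule.sum_mem _ (fun p hp => ?_)
      have h1 := (Finset.mem_filter.1 hp).2
      refine hterm _ _ h1 hS.le ?_
      by_contra hn
      simp only [not_or, not_not, not_lt] at hn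
      have h2 := Finset.card_union_of_disjoint hn.2.1
      have h3 := Finset.card_pos.2 (Finset.nonempty_iff_ne_empty.2 hn.1)
      rw [h1] at h2
      omega
    · intro hS
      let P := (S.powerset ×ˢ S.powerset).filter (fun p => p.1 ∪ p.2 = S)
      let e : ι ↪ Finset ι × Finset ι :=
        ⟨fun j => ({j}, S.erase j), fun i j hij => by simpa using congrArg Prod.fst hij⟩
      have hsub : S.map e ⊆ P := by
        intro p hp
        obtain ⟨j, hj, rfl⟩ := Finset.mem_map.1 hp
        change (({j}, S.erase j) : Finset ι × Finset ι) ∈ P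
        simp only [P, Finset.mem_filter, Finset.mem_product, Finset.mem_powerset,
          Finset.singleton_subset_iff]
        exact ⟨⟨hj, Finset.erase_subset _ _⟩, by
          rw [← Finset.insert_eq, Finset.insert_erase hj]⟩
      have hsplit : cpow c (k + 1) S = ∑ p ∈ P \ S.map e, c p.1 * cpow c k p.2 +
          ∑ j ∈ S, c {j} * cpow c k (S.erase j) := by
        rw [cpow, cover, ← Finset.sum_sdiff hsub, Finset.sum_map]
        rfl
      rw [hsplit, symProd_succ, add_sub_assoc, ← Finset.sum_sub_distrib]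
      refine add_mem (Submodule.sum_mem _ (fun p hp => ?_)) (Submodule.sum_mem _ (fun j hj => ?_))
      · obtain ⟨hp1, hp2⟩ := Finset.mem_sdiff.1 hp
        have h1 := (Finset.mem_filter.1 hp1).2
        refine hterm _ _ h1 hS.le ?_
        by_contra hn
        simp only [not_or, not_not, not_lt] at hn
        have h2 := Finset.card_union_of_disjoint hn.2.1
        have h3 := Finset.card_pos.2 (Finset.nonempty_iff_ne_empty.2 hn.1)
        rw [h1] at h2
        obtain ⟨j, hj⟩ := Finset.card_eq_one.1 (show p.1.card = 1 by omega)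
        apply hp2
        have hjS : j ∈ S := by rw [← h1, hj]; simp
        refine Finset.mem_map.2 ⟨j, hjS, Prod.ext hj.symm ?_⟩
        change S.erase j = p.2
        have h4 := hn.2.1
        rw [hj, Finset.disjoint_singleton_left] at h4
        rw [← h1, hj, ← Finset.insert_eq, Finset.erase_insert h4]
      · rw [← mul_sub]
        have h1 := (ih (S.erase j)).2 (by rw [Finset.card_erase_of_mem hj, hS]; rfl)
        have h2 := hc {j}
        rw [Finset.sum_singleton] at h2
        have h3 := h.mul _ _ _ _ h2 h1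
        rwa [← add_assoc, Finset.add_sum_erase _ _ hj] at h3

theorem symProd_mem {y : ι → R} (hy : ∀ j, y j ∈ Φ (w j)) (k : ℕ) (S : Finset ι)
    (hS : S.card = k) : symProd y k S ∈ Φ (∑ j ∈ S, w j) ∧
      symProd (fun j => sb h (w j) (y j)) k S = sb h (∑ j ∈ S, w j) (symProd y k S) := by
  induction k generalizing S with
  | zero =>
    rw [Finset.card_eq_zero.1 hS]
    exact ⟨h.top _, (sb_one h).symm⟩
  | succ k ih =>
    have h1 : ∀ j ∈ S, (S.erase j).card = k := fun j hj => by
      rw [Finset.card_erase_of_mem hj, hS]; rfl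
    have h2 : ∀ j ∈ S, y j * symProd y k (S.erase j) ∈ Φ (∑ j ∈ S, w j) := fun j hj => by
      have := h.mul _ _ _ _ (hy j) (ih _ (h1 j hj)).1
      rwa [Finset.add_sum_erase _ _ hj] at this
    rw [symProd_succ, symProd_succ]
    refine ⟨Submodule.sum_mem _ h2, ?_⟩
    rw [sb_sum h S h2]
    refine Finset.sum_congr rfl (fun j hj => ?_)
    rw [(ih _ (h1 j hj)).2, sb_mul h (hy j) (ih _ (h1 j hj)).1, Finset.add_sum_erase _ _ hj]

/-- **Linearisation.**  If all products `g` of the `1 + y j` satisfy `(g - 1) ^ n = 0`, then the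
symbols of the `y j` satisfy the linearised identity. -/
theorem symProd_sb_eq_zero [Fintype ι] (hw : ∀ j, 1 ≤ w j) {y : ι → R} (hy : ∀ j, y j ∈ Φ (w j))
    {n : ℕ} (hn : ∀ (l : List ι) (T : Finset ι),
      ((l.map (fun j => if j ∈ T then 1 + y j else 1)).prod - 1) ^ n = 0)
    (S : Finset ι) (hS : S.card = n) : symProd (fun j => sb h (w j) (y j)) n S = 0 := by
  obtain ⟨d, hd1, hd2⟩ := exists_coeff_prod h hy (Finset.univ : Finset ι).toList
  let c : Finset ι → R := fun A => d A - dl A
  have hc : ∀ A, c A ∈ Φ (∑ j ∈ A, w j) := fun A => sub_mem (hd1 A) (dl_mem h A)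
  have hz : ∀ T, zeta c T = zeta d T - 1 := fun T => by
    rw [← zeta_dl (R := R) T]
    simp only [zeta, c, Finset.sum_sub_distrib]
  have hc0 : c ∅ = 0 := by
    rw [← zeta_empty c, hz, hd2, prod_ite_not_mem _ _ _ (by simp), sub_self]
  have hc1 : ∀ j, c {j} = y j := fun j => by
    have h1 := zeta_single c j
    rw [hc0, zero_add, hz, hd2,
      prod_ite_single _ j _ (Finset.nodup_toList _) (by simp)] at h1
    rw [← h1]; abel
  have h0 : cpow c n S = 0 :=
    eq_zero_of_zeta (fun T => by rw [zeta_cpow, hz, hd2]; exact hn _ T) S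
  have h1 := (cpow_lead h hw hc hc0 n S).2 hS
  rw [h0, zero_sub, neg_mem_iff] at h1
  simp only [hc1] at h1
  rw [(symProd_mem h hy n S hS).2]
  exact (sb_eq_zero_iff h (symProd_mem h hy n S hS).1).2 h1

end Cfsg.Agent.Zel.Grp
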