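import Cfsg.Agent.Zel.Grp.Red

/-!
# The two exponent theorems from the associative theorem
-/

set_option autoImplicit false

universe u

namespace Cfsg.Agent.Zel.Grp

open scoped Pointwise

/-- restriction of an additive family of automorphisms to an invariant subgroup -/
def resAut {G B : Type*} [Group G] [AddCommGroup B] (θ : B → MulAut G)
    (hθ : ∀ s t, θ (s + t) = θ s * θ t) (K : Subgroup G) (hK : ∀ s, ∀ g ∈ K, θ s g ∈ K) (s : B) :
    MulAut K where
  toFun g := ⟨θ s g, hK s g g.2⟩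
  invFun g := ⟨θ (-s) g, hK _ g g.2⟩
  left_inv g := Subtype.ext (by
    change θ (-s) (θ s g) = g
    rw [fam_apply θ hθ, neg_add_cancel, fam_zero θ hθ]; rfl)
  right_inv g := Subtype.ext (by
    change θ s (θ (-s) g) = g
    rw [fam_apply θ hθ, add_neg_cancel, fam_zero θ hθ]; rfl)
  map_mul' a b := Subtype.ext (map_mul (θ s) (a : G) (b : G))

theorem resAut_add {G B : Type*} [Group G] [AddCommGroup B] (θ : B → MulAut G)
    (hθ : ∀ s t, θ (s + t) = θ s * θ t) (K : Subgroup G) (hK : ∀ s, ∀ g ∈ K, θ s g ∈ K)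
    (s t : B) : resAut θ hθ K hK (s + t) = resAut θ hθ K hK s * resAut θ hθ K hK t := by
  ext g
  exact (fam_apply θ hθ s t g).symm

theorem sub_bound (hL : AssocThmAll.{u}) (q m : ℕ) [Fact q.Prime] (hm : 0 < m) :
    ∃ e, 0 < e ∧ ∀ (G : Type u) [Group G] [Finite G] (p : ℕ) [Fact p.Prime], q ≠ p →
      ∀ θ : ZMod q × ZMod q → MulAut G, (∀ s t, θ (s + t) = θ s * θ t) →
      ∀ K : Subgroup G, IsPGroup p K → (∀ s, ∀ g ∈ K, θ s g ∈ K) →
      (∀ s, s ≠ 0 → ∀ g ∈ K, θ s g = g → g ^ m = 1) → ∀ g ∈ K, g ^ e = 1 := by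
  have h1 : ∀ p : ℕ, ∃ N : ℕ, ∀ [Fact p.Prime], q ≠ p → ∀ (H : Type u) [Group H] [Finite H],
      IsPGroup p H → ∀ θ : ZMod q × ZMod q → MulAut H, (∀ s t, θ (s + t) = θ s * θ t) →
      (∀ s, s ≠ 0 → ∀ g, θ s g = g → g ^ p ^ m = 1) →
      ∀ x, Subgroup.closure (Set.range (fun s => θ s x)) = ⊤ → x ^ p ^ N = 1 := by
    intro p
    by_cases hp : p.Prime ∧ q ≠ p
    · have := Fact.mk hp.1
      obtain ⟨N, hN⟩ := core_bound hL p q m hp.2
      exact ⟨N, fun _ => hN⟩
    · exact ⟨0, fun h => absurd ⟨Fact.out, h⟩ hp⟩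
  choose N hN using h1
  refine ⟨∏ p ∈ Finset.Icc 1 m, p ^ N p, Finset.prod_pos (fun p hp =>
    pow_pos (Finset.mem_Icc.1 hp).1 _), fun G _ _ p _ hpq θ hθ K hK hKi hfix x hx => ?_⟩
  let X : Subgroup G := Subgroup.closure (Set.range (fun s => θ s x))
  have hXK : X ≤ K := (Subgroup.closure_le _).2 (by rintro _ ⟨s, rfl⟩; exact hKi s x hx)
  have hXi : ∀ s, ∀ g ∈ X, θ s g ∈ X := by
    intro s
    have : X ≤ X.comap (θ s).toMonoidHom := (Subgroup.closure_le _).2 (by
      rintro _ ⟨t, rfl⟩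
      exact Subgroup.subset_closure ⟨s + t, (fam_apply θ hθ s t x).symm⟩)
    exact fun g hg => this hg
  have hxX : x ∈ X := Subgroup.subset_closure ⟨0, by
    change θ 0 x = x
    rw [fam_zero θ hθ]; rfl⟩
  have hX : IsPGroup p X := hK.to_le hXK
  have hgen : Subgroup.closure (Set.range (fun s => resAut θ hθ X hXi s ⟨x, hxX⟩)) = ⊤ := by
    rw [← Subgroup.map_subtype_inj, MonoidHom.map_closure, ← Set.range_comp,
      ← MonoidHom.range_eq_map, Subgroup.range_subtype]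
    rfl
  have hord : ∀ s, s ≠ 0 → ∀ g : X, resAut θ hθ X hXi s g = g → ∃ j, orderOf g = p ^ j ∧
      p ^ j ∣ m := by
    intro s hs g hg
    obtain ⟨j, hj⟩ := IsPGroup.iff_orderOf.1 hX g
    refine ⟨j, hj, hj ▸ orderOf_dvd_of_pow_eq_one (Subtype.ext ?_)⟩
    exact hfix s hs g (hXK g.2) (congrArg Subtype.val hg)
  by_cases hpm : p ∣ m
  · have h2 := hN p hpq X hX _ (resAut_add θ hθ X hXi) (fun s hs g hg => by
      obtain ⟨j, h1, h2⟩ := hord s hs g hg
      rw [← orderOf_dvd_iff_pow_eq_one, h1]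
      exact pow_dvd_pow p ((Nat.lt_pow_self (Fact.out : p.Prime).one_lt).le.trans
        (Nat.le_of_dvd hm h2))) _ hgen
    have h3 : x ^ p ^ N p = 1 := congrArg Subtype.val h2
    obtain ⟨c, hc⟩ := Finset.dvd_prod_of_mem (fun p => p ^ N p)
      (Finset.mem_Icc.2 ⟨(Fact.out : p.Prime).one_le, Nat.le_of_dvd hm hpm⟩)
    rw [hc, pow_mul, h3, one_pow]
  · have h2 := core_triv p q hpq X hX _ (resAut_add θ hθ X hXi) (fun s hs g hg => by
      obtain ⟨j, h1, h2⟩ := hord s hs g hg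
      cases j with
      | zero => exact orderOf_eq_one_iff.1 h1
      | succ j => exact absurd ((dvd_pow_self p j.succ_ne_zero).trans h2) hpm) _ hgen
    have h3 : x = 1 := congrArg Subtype.val h2
    rw [h3, one_pow]

section Act

variable {A G : Type*} [Group A] [Group G] [MulDistribMulAction A G] {q : ℕ} [Fact q.Prime]
  (hc : ∀ a b : A, a * b = b * a) (he : ∀ a : A, a ^ q = 1)

/-- the element with coordinates `s` -/
def th (b c : A) (s : ZMod q × ZMod q) : A := b ^ s.1.val * c ^ s.2.val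

include he in
theorem pow_val_add (b : A) (i j : ZMod q) : b ^ (i + j).val = b ^ i.val * b ^ j.val := by
  rw [ZMod.val_add, ← pow_add, ← pow_eq_pow_mod _ (he b)]

include hc he in
theorem th_add (b c : A) (s t : ZMod q × ZMod q) : th b c (s + t) = th b c s * th b c t := by
  simp only [th, Prod.fst_add, Prod.snd_add, pow_val_add he]
  rw [mul_assoc, mul_assoc, ← mul_assoc (b ^ t.1.val), hc (b ^ t.1.val), mul_assoc]

include he in
theorem mem_of_pow_val_mem (S : Subgroup A) {c : A} {j : ZMod q} (hj : j ≠ 0)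
    (h : c ^ j.val ∈ S) : c ∈ S := by
  have h1 : (c ^ j.val) ^ (j⁻¹).val = c := by
    rw [← pow_mul, pow_eq_pow_mod _ (he c), ← ZMod.val_mul, mul_inv_cancel₀ hj, ZMod.val_one,
      pow_one]
  rw [← h1]
  exact pow_mem h _

include he in
theorem th_not_mem (S : Subgroup A) {b c : A} (hb : b ∉ S) (hc' : c ∉ S ⊔ Subgroup.zpowers b)
    {s : ZMod q × ZMod q} (hs : s ≠ 0) : th b c s ∉ S := by
  intro h
  by_cases h2 : s.2 = 0
  · have h1 : s.1 ≠ 0 := fun h1 => hs (Prod.ext h1 h2)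
    rw [th, h2, ZMod.val_zero, pow_zero, mul_one] at h
    exact hb (mem_of_pow_val_mem he S h1 h)
  · refine hc' (mem_of_pow_val_mem he _ h2 ?_)
    exact (Subgroup.mul_mem_cancel_left _ (Subgroup.mem_sup_right
      (Subgroup.npow_mem_zpowers b s.1.val))).1 (Subgroup.mem_sup_left h)

include hc he in
theorem card_sup_le [Finite A] (S : Subgroup A) (b : A) :
    Nat.card (S ⊔ Subgroup.zpowers b : Subgroup A) ≤ Nat.card S * q := by
  have hn : S.Normal := ⟨fun n hn g => by rwa [hc g n, mul_inv_cancel_right]⟩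
  have h1 : Function.Surjective (fun x : S × Subgroup.zpowers b =>
      (⟨x.1 * x.2, mul_mem (Subgroup.mem_sup_left x.1.2) (Subgroup.mem_sup_right x.2.2)⟩ :
        (S ⊔ Subgroup.zpowers b : Subgroup A))) := by
    rintro ⟨g, hg⟩
    obtain ⟨a, ha, c, hc, rfl⟩ := Subgroup.mem_sup_of_normal_left.1 hg
    exact ⟨(⟨a, ha⟩, ⟨c, hc⟩), rfl⟩
  refine (Nat.card_le_card_of_surjective _ h1).trans ?_
  rw [Nat.card_prod, Nat.card_zpowers]
  exact Nat.mul_le_mul_left _ (orderOf_le_of_pow_eq_one (Fact.out : q.Prime).pos (he b))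

theorem exists_not_mem_of_card_lt [Finite A] (S : Subgroup A) (h : Nat.card S < Nat.card A) :
    ∃ b, b ∉ S := by
  by_contra h1
  have : S = ⊤ := eq_top_iff.2 (fun b _ => by_contra (fun hb => h1 ⟨b, hb⟩))
  rw [this, Subgroup.card_top] at h
  exact lt_irrefl _ h

include hc he in
theorem exists_pair [Finite A] (S : Subgroup A) (h : Nat.card S * q < Nat.card A) :
    ∃ b c : A, ∀ s : ZMod q × ZMod q, s ≠ 0 → th b c s ∉ S := by
  obtain ⟨b, hb⟩ := exists_not_mem_of_card_lt S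
    (lt_of_le_of_lt (Nat.le_mul_of_pos_right _ (Fact.out : q.Prime).pos) h)
  obtain ⟨c, hc'⟩ := exists_not_mem_of_card_lt _ (lt_of_le_of_lt (card_sup_le hc he S b) h)
  exact ⟨b, c, fun s hs => th_not_mem he S hb hc' hs⟩

variable (G) in
/-- the family of automorphisms given by two elements -/
def thAut (b c : A) (s : ZMod q × ZMod q) : MulAut G := MulDistribMulAction.toMulAut A G (th b c s)

include hc he in
theorem thAut_add (b c : A) (s t : ZMod q × ZMod q) :
    thAut G b c (s + t) = thAut G b c s * thAut G b c t := by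
  simp only [thAut, th_add hc he, map_mul]

theorem thAut_apply (b c : A) (s : ZMod q × ZMod q) (g : G) : thAut G b c s g = th b c s • g := rfl

omit [Fact q.Prime] in
theorem mem_fixed_zpowers {a : A} {g : G} :
    g ∈ FixedPoints.subgroup (Subgroup.zpowers a) G ↔ a • g = g := by
  rw [FixedPoints.mem_subgroup]
  constructor
  · intro h; exact h ⟨a, Subgroup.mem_zpowers a⟩
  · rintro h ⟨_, k, rfl⟩
    exact zpow_mem (show a ∈ MulAction.stabilizer A g from h) k

include he in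
theorem exists_inv_sylow [Finite G] (hq : ¬ q ∣ Nat.card G) (p : ℕ) [Fact p.Prime] :
    ∃ P : Sylow p G, ∀ a : A, ∀ x ∈ (P : Subgroup G), a • x ∈ (P : Subgroup G) := by
  have hA : IsPGroup q A := fun a => ⟨1, by rw [pow_one, he]⟩
  obtain ⟨P, hP⟩ := hA.nonempty_fixed_point_of_prime_not_dvd_card (Sylow p G) (fun h => by
    obtain ⟨P⟩ : Nonempty (Sylow p G) := inferInstance
    exact hq (h.trans (P.card_dvd_index.trans (Subgroup.index_dvd_card _))))
  refine ⟨P, fun a x hx => ?_⟩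
  have h1 : a • (P : Subgroup G) = P := by rw [← Sylow.pointwise_smul_def, hP a]
  rw [← h1]
  exact Subgroup.smul_mem_pointwise_smul _ _ _ hx

end Act

theorem pow_eq_one_of_sylow {G : Type*} [Group G] [Finite G] (N : Subgroup G) [hN : N.Normal]
    {q e : ℕ} (hq : ¬ q ∣ Nat.card G)
    (h : ∀ (p : ℕ) [Fact p.Prime], q ≠ p → ∃ P : Sylow p G, ∀ x ∈ (P : Subgroup G) ⊓ N, x ^ e = 1)
    {g : G} (hg : g ∈ N) : g ^ e = 1 := by
  rw [← orderOf_dvd_iff_pow_eq_one, Nat.dvd_iff_prime_pow_dvd_dvd]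
  intro p k hp hk
  have := Fact.mk hp
  rcases Nat.eq_zero_or_pos k with rfl | hk0
  · simp
  have hpq : q ≠ p := by
    rintro rfl
    exact hq (((dvd_pow_self q hk0.ne').trans hk).trans (orderOf_dvd_natCard g))
  obtain ⟨P, hP⟩ := h p hpq
  set x := g ^ (orderOf g / p ^ k)
  have hx : orderOf x = p ^ k := orderOf_pow_orderOf_div (orderOf_pos g).ne' hk
  have h1 : IsPGroup p (Subgroup.zpowers x) := IsPGroup.of_card (by rw [Nat.card_zpowers, hx])
  obtain ⟨Q, hQ⟩ := h1.exists_le_sylow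
  obtain ⟨y, hy⟩ := MulAction.exists_smul_eq G Q P
  have h2 : y * x * y⁻¹ ∈ (P : Subgroup G) := by
    rw [← hy, Sylow.coe_subgroup_smul]
    exact Subgroup.smul_mem_pointwise_smul _ (MulAut.conj y) _ (hQ (Subgroup.mem_zpowers x))
  have h3 := hP _ ⟨h2, hN.conj_mem _ (pow_mem hg _) y⟩
  rw [conj_pow, conj_eq_one_iff] at h3
  rw [← hx]
  exact orderOf_dvd_of_pow_eq_one h3

theorem main4315 (hL : AssocThmAll.{u}) :
    ∃ f : ℕ → ℕ → ℕ, ∀ (q m : ℕ) (A G : Type u) [Group A] [Finite A] [Group G] [Finite G]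
      [MulDistribMulAction A G],
      q.Prime → 0 < m → Nat.card A = q ^ 2 → ¬ IsCyclic A → ¬ q ∣ Nat.card G →
      (∀ a : A, a ≠ 1 → Monoid.exponent ↥(FixedPoints.subgroup (Subgroup.zpowers a) G) ∣ m) →
      Monoid.exponent G ≤ f q m := by
  suffices h : ∀ q m : ℕ, ∃ e : ℕ, ∀ (A G : Type u) [Group A] [Finite A] [Group G] [Finite G]
      [MulDistribMulAction A G],
      q.Prime → 0 < m → Nat.card A = q ^ 2 → ¬ IsCyclic A → ¬ q ∣ Nat.card G →
      (∀ a : A, a ≠ 1 → Monoid.exponent ↥(FixedPoints.subgroup (Subgroup.zpowers a) G) ∣ m) →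
      Monoid.exponent G ≤ e by
    choose f hf using h
    exact ⟨f, hf⟩
  intro q m
  by_cases hqm : q.Prime ∧ 0 < m
  swap
  · exact ⟨0, fun _ _ _ _ _ _ _ hq hm => absurd ⟨hq, hm⟩ hqm⟩
  have := Fact.mk hqm.1
  obtain ⟨e, he0, he⟩ := sub_bound hL q m hqm.2
  refine ⟨e, fun A G _ _ _ _ _ hq _ hA hcyc hG hfix => ?_⟩
  have hc : ∀ a b : A, a * b = b * a := (IsPGroup.isMulCommutative_of_card_eq_prime_sq hA).is_comm.comm
  have hexp : ∀ a : A, a ^ q = 1 := by
    intro a
    have h1 : orderOf a ∣ q ^ 2 := hA ▸ orderOf_dvd_natCard a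
    obtain ⟨k, hk, h2⟩ := (Nat.dvd_prime_pow hq).1 h1
    by_cases h3 : k = 2
    · exact absurd (isCyclic_of_orderOf_eq_card a (by rw [h2, h3, hA])) hcyc
    · rw [← orderOf_dvd_iff_pow_eq_one, h2]
      conv_rhs => rw [← pow_one q]
      exact pow_dvd_pow q (by omega)
  obtain ⟨b, c, hbc⟩ := exists_pair hc hexp ⊥ (by
    rw [hA, Subgroup.card_bot, one_mul, sq]
    exact lt_mul_self hq.one_lt)
  refine Nat.le_of_dvd he0 (Monoid.exponent_dvd_of_forall_pow_eq_one (fun g => ?_))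
  refine pow_eq_one_of_sylow ⊤ hG (fun p _ hpq => ?_) trivial
  obtain ⟨P, hP⟩ := exists_inv_sylow hexp hG p
  refine ⟨P, fun x hx => he G p hpq (thAut G b c) (thAut_add hc hexp b c) P P.2
    (fun s g hg => hP _ g hg) (fun s hs g _ hg => ?_) x hx.1⟩
  have h1 := Monoid.exponent_dvd_iff_forall_pow_eq_one.1 (hfix (th b c s) (hbc s hs))
    ⟨g, mem_fixed_zpowers.2 hg⟩
  exact congrArg Subtype.val h1

/-- the statement S4318 -/
def Focal : Prop :=
  ∀ (A G : Type u) [Group A] [Finite A] [Group G] [Finite G] [MulDistribMulAction A G] (q : ℕ),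
    q.Prime → Nat.card A = q ^ 3 → (∀ a b : A, a * b = b * a) → (∀ a : A, a ^ q = 1) →
    ¬ q ∣ Nat.card G → ∀ (p : ℕ) [Fact p.Prime] (P : Sylow p G),
    (∀ a : A, ∀ x : G, x ∈ (P : Subgroup G) → a • x ∈ (P : Subgroup G)) →
    (P : Subgroup G) ⊓ commutator G =
      ⨆ a : {a : A // a ≠ 1}, (P : Subgroup G) ⊓
        (commutator ↥(FixedPoints.subgroup (Subgroup.zpowers (a : A)) G)).map
          (FixedPoints.subgroup (Subgroup.zpowers (a : A)) G).subtype

theorem main4317 (hL : AssocThmAll.{u}) (hF : Focal.{u}) :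
    ∃ f : ℕ → ℕ → ℕ, ∀ (q m : ℕ) (A G : Type u) [Group A] [Finite A] [Group G] [Finite G]
      [MulDistribMulAction A G],
      q.Prime → 0 < m → Nat.card A = q ^ 3 → (∀ a b : A, a * b = b * a) → (∀ a : A, a ^ q = 1) →
      ¬ q ∣ Nat.card G →
      (∀ a : A, a ≠ 1 →
        Monoid.exponent ↥(commutator ↥(FixedPoints.subgroup (Subgroup.zpowers a) G)) ∣ m) →
      Monoid.exponent ↥(commutator G) ≤ f q m := by
  suffices h : ∀ q m : ℕ, ∃ e : ℕ, ∀ (A G : Type u) [Group A] [Finite A] [Group G] [Finite G]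
      [MulDistribMulAction A G],
      q.Prime → 0 < m → Nat.card A = q ^ 3 → (∀ a b : A, a * b = b * a) → (∀ a : A, a ^ q = 1) →
      ¬ q ∣ Nat.card G →
      (∀ a : A, a ≠ 1 →
        Monoid.exponent ↥(commutator ↥(FixedPoints.subgroup (Subgroup.zpowers a) G)) ∣ m) →
      Monoid.exponent ↥(commutator G) ≤ e by
    choose f hf using h
    exact ⟨f, hf⟩
  intro q m
  by_cases hqm : q.Prime ∧ 0 < m
  swap
  · exact ⟨0, fun _ _ _ _ _ _ _ hq hm => absurd ⟨hq, hm⟩ hqm⟩
  have := Fact.mk hqm.1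
  obtain ⟨e₁, he₁0, he₁⟩ := sub_bound hL q (m ^ (q * q - 1)) (pow_pos hqm.2 _)
  obtain ⟨e₂, he₂0, he₂⟩ := sub_bound hL q e₁ he₁0
  refine ⟨m * e₂, fun A G _ _ _ _ _ hq hm hA hc hexp hG hfix => ?_⟩
  refine Nat.le_of_dvd (mul_pos hm he₂0)
    (Monoid.exponent_dvd_of_forall_pow_eq_one (fun g => Subtype.ext ?_))
  refine pow_eq_one_of_sylow (commutator G) hG (fun p _ hpq => ?_) g.2
  obtain ⟨P, hP⟩ := exists_inv_sylow hexp hG p
  refine ⟨P, ?_⟩
  set K : Subgroup G := (P : Subgroup G) ⊓ commutator G with hKdef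
  have hK : IsPGroup p K := P.2.to_le inf_le_left
  have hcm : ∀ (X : Subgroup G), (commutator X).map X.subtype = ⁅X, X⁆ := fun X =>
    Subgroup.map_subtype_commutator X
  have hfix' : ∀ a : A, a ≠ 1 → ∀ g ∈ ⁅FixedPoints.subgroup (Subgroup.zpowers a) G,
      FixedPoints.subgroup (Subgroup.zpowers a) G⁆, g ^ m = 1 := by
    intro a ha g hg
    rw [← hcm] at hg
    obtain ⟨y, hy, rfl⟩ := hg
    have h1 := Monoid.exponent_dvd_iff_forall_pow_eq_one.1 (hfix a ha) ⟨y, hy⟩
    exact congrArg (fun z => ((z : commutator _) : FixedPoints.subgroup (Subgroup.zpowers a) G).1) h1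
  have hKi : ∀ a : A, ∀ g ∈ K, a • g ∈ K := fun a g hg =>
    ⟨hP a g hg.1, comm_inv (Y := ⊤) (K := ⊤) (MulDistribMulAction.toMulAut A G a)
      (fun _ _ => trivial) (fun _ _ => trivial) g hg.2⟩
  have hKi' : ∀ a : A, ∀ g ∈ ⁅K, K⁆, a • g ∈ ⁅K, K⁆ := fun a =>
    comm_inv (MulDistribMulAction.toMulAut A G a) (hKi a) (hKi a)
  have hKK : ⁅K, K⁆ ≤ K := Subgroup.commutator_le_self K
  -- rank two fixed points
  have h1 : ∀ a d : A, a ≠ 1 → d ∉ Subgroup.zpowers a → ∀ g ∈ ⁅K, K⁆, a • g = g → d • g = g →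
      g ^ m ^ (q * q - 1) = 1 := by
    intro a d ha hd g hg hag hdg
    have hne : ∀ s : ZMod q × ZMod q, s ≠ 0 → th a d s ≠ 1 := fun s hs =>
      th_not_mem hexp ⊥ ha (by rwa [bot_sup_eq]) hs
    rw [← hcm] at hg
    obtain ⟨y, hy, rfl⟩ := hg
    have h2 := fix_derived hK hpq _ (resAut_add (thAut G a d) (thAut_add hc hexp a d) K
      (fun s => hKi _)) (m := m) (fun s hs z hz => by
        apply Subtype.ext
        refine hfix' _ (hne s hs) z ?_
        have h3 := Subgroup.mem_map_of_mem K.subtype hz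
        rw [Subgroup.map_commutator] at h3
        have h4 : (fixSub (resAut (thAut G a d) (thAut_add hc hexp a d) K
            (fun s => hKi _) s)).map K.subtype ≤
            FixedPoints.subgroup (Subgroup.zpowers (th a d s)) G := by
          rintro _ ⟨w, hw, rfl⟩
          exact mem_fixed_zpowers.2 (congrArg Subtype.val hw)
        exact Subgroup.commutator_mono h4 h4 h3) hy (fun t => Subtype.ext (by
          exact mul_mem (pow_mem (show a ∈ MulAction.stabilizer A (y : G) from hag) _)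
            (pow_mem (show d ∈ MulAction.stabilizer A (y : G) from hdg) _)))
    exact congrArg Subtype.val h2
  -- rank one fixed points
  have h2 : ∀ a : A, a ≠ 1 → ∀ g ∈ ⁅K, K⁆, a • g = g → g ^ e₁ = 1 := by
    intro a ha g hg hag
    obtain ⟨b, c, hbc⟩ := exists_pair hc hexp (Subgroup.zpowers a) (by
      rw [hA, Nat.card_zpowers]
      calc orderOf a * q ≤ q * q :=
            Nat.mul_le_mul_right _ (orderOf_le_of_pow_eq_one hq.pos (hexp a))
        _ = q ^ 2 := (sq q).symm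
        _ < q ^ 3 := Nat.pow_lt_pow_right hq.one_lt (by omega))
    refine he₁ G p hpq (thAut G b c) (thAut_add hc hexp b c)
      (⁅K, K⁆ ⊓ FixedPoints.subgroup (Subgroup.zpowers a) G) (hK.to_le (inf_le_left.trans hKK))
      (fun s y hy => ⟨hKi' _ y hy.1, mem_fixed_zpowers.2 ?_⟩)
      (fun s hs y hy hy' => h1 a _ ha (hbc s hs) y hy.1 (mem_fixed_zpowers.1 hy.2) hy') g
      ⟨hg, mem_fixed_zpowers.2 hag⟩
    rw [thAut_apply, smul_smul, hc, ← smul_smul, mem_fixed_zpowers.1 hy.2]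
  have h3 : ∀ g ∈ ⁅K, K⁆, g ^ e₂ = 1 := by
    obtain ⟨b, c, hbc⟩ := exists_pair hc hexp ⊥ (by
      rw [hA, Subgroup.card_bot, one_mul]
      conv_lhs => rw [← pow_one q]
      exact Nat.pow_lt_pow_right hq.one_lt (by omega))
    exact he₂ G p hpq (thAut G b c) (thAut_add hc hexp b c) _ (hK.to_le hKK)
      (fun s y hy => hKi' _ y hy) (fun s hs y hy hy' => h2 _ (hbc s hs) y hy hy')
  -- the abelianisation of `K`
  have h4 : ∀ g ∈ K, g ^ m ∈ ⁅K, K⁆ := by
    let f : K →* Abelianization K := (powMonoidHom m).comp Abelianization.of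
    have h5 : K ≤ f.ker.map K.subtype := by
      conv_lhs => rw [hKdef, hF A G q hq hA hc hexp hG p P hP]
      refine iSup_le (fun a g hg => ?_)
      rw [hcm] at hg
      have hgK : g ∈ K := ⟨hg.1, Subgroup.commutator_mono le_top le_top hg.2⟩
      refine ⟨⟨g, hgK⟩, ?_, rfl⟩
      change (Abelianization.of (⟨g, hgK⟩ : K)) ^ m = 1
      rw [← map_pow, ← map_one Abelianization.of]
      congr 1
      exact Subtype.ext (hfix' a a.2 g hg.2)
    intro g hg
    obtain ⟨y, hy, rfl⟩ := h5 hg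
    have h6 : y ^ m ∈ commutator K := by
      rw [← Abelianization.ker_of, MonoidHom.mem_ker, map_pow]
      exact hy
    rw [← hcm]
    exact ⟨y ^ m, h6, rfl⟩
  intro x hx
  rw [pow_mul]
  exact h3 _ (h4 x hx)

end Cfsg.Agent.Zel.Grp
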