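import Cfsg.Agent.Zel.Grp.Bound

/-!
# Fixed points of `C_q × C_q` in the derived subgroup of a `p`-group
-/

set_option autoImplicit false

namespace Cfsg.Agent.Zel.Grp

open scoped commutatorElement IsMulCommutative

section Avg

variable {H : Type*} [Group H] [Finite H] {q : ℕ} [Fact q.Prime]
  {B : Type*} [AddCommGroup B] [Fintype B] (hB : ∀ b : B, q • b = 0)
  (θ : B → MulAut H) (hθ : ∀ s t, θ (s + t) = θ s * θ t)

omit [Finite H] [Fintype B] in
include hθ in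
theorem fam_zero : θ 0 = 1 := by
  have := hθ 0 0
  rw [add_zero] at this
  exact (mul_eq_left.1 this.symm)

omit [Finite H] [Fintype B] in
include hθ in
theorem fam_apply (s t : B) (g : H) : θ s (θ t g) = θ (s + t) g := by rw [hθ]; rfl

omit [Finite H] [Fintype B] in
include hB hθ in
theorem exists_fixed_in_coset_fam (N : Subgroup H) (hN : ∀ t, ∀ x ∈ N, θ t x ∈ N)
    (hq : ¬ q ∣ Nat.card N) (g : H) (hg : ∀ t, g⁻¹ * θ t g ∈ N) :
    ∃ n ∈ N, ∀ t, θ t (g * n) = g * n := by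
  have hX : ∀ t, ∀ x : H, g⁻¹ * x ∈ N → g⁻¹ * θ t x ∈ N := by
    intro t x hx
    have : g⁻¹ * θ t x = g⁻¹ * θ t g * θ t (g⁻¹ * x) := by simp [mul_assoc]
    rw [this]
    exact mul_mem (hg t) (hN _ _ hx)
  let _ : MulAction (Multiplicative B) {x : H // g⁻¹ * x ∈ N} :=
    { smul := fun t x => ⟨θ t.toAdd x, hX _ _ x.2⟩
      one_smul := fun x => Subtype.ext (by
        change θ 0 x = x
        rw [fam_zero θ hθ]; rfl)
      mul_smul := fun s t x => Subtype.ext (fam_apply θ hθ s.toAdd t.toAdd x).symm }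
  let e : {x : H // g⁻¹ * x ∈ N} ≃ N :=
    { toFun := fun x => ⟨g⁻¹ * x, x.2⟩
      invFun := fun n => ⟨g * n, by simp⟩
      left_inv := fun x => by simp
      right_inv := fun n => by simp }
  have hP : IsPGroup q (Multiplicative B) := fun b => ⟨1, by
    rw [pow_one]; exact congrArg Multiplicative.ofAdd (hB b.toAdd)⟩
  obtain ⟨a, ha⟩ := hP.nonempty_fixed_point_of_prime_not_dvd_card {x : H // g⁻¹ * x ∈ N}
    (by rw [Nat.card_congr e]; exact hq)
  refine ⟨g⁻¹ * a, a.2, fun t => ?_⟩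
  rw [mul_inv_cancel_left]
  exact congrArg Subtype.val (ha (Multiplicative.ofAdd t))

include hB hθ in
/-- averaging: a fixed element with the prescribed image in a commutative group -/
theorem avg_lift {M : Type*} [CommGroup M] (Y : Subgroup H) (hq : ¬ q ∣ Nat.card H) (Φ : H → M)
    (hΦ : ∀ a ∈ Y, ∀ b ∈ Y, Φ (a * b) = Φ a * Φ b) (hY : ∀ t, ∀ y ∈ Y, θ t y ∈ Y)
    (hk : ∀ t, ∀ y ∈ Y, Φ y = 1 → Φ (θ t y) = 1) {u : H} (hu : u ∈ Y) :
    ∃ u' ∈ Y, (∀ t, θ t u' = u') ∧ Φ u' = ∏ t, Φ (θ t u) := by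
  classical
  have h1 : Φ 1 = 1 := by
    have := hΦ 1 (one_mem _) 1 (one_mem _)
    rw [one_mul] at this
    exact (mul_eq_left.1 this.symm)
  have hinv : ∀ a ∈ Y, Φ a⁻¹ = (Φ a)⁻¹ := fun a ha => by
    rw [eq_inv_iff_mul_eq_one, ← hΦ _ (inv_mem ha) _ ha, inv_mul_cancel, h1]
  have h2 : ∀ S : Finset B, ∃ U ∈ Y, ∀ s, Φ (θ s U) = ∏ t ∈ S, Φ (θ (s + t) u) := by
    intro S
    induction S using Finset.induction_on with
    | empty => exact ⟨1, one_mem _, fun s => by simp [h1]⟩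
    | insert t S ht ih =>
      obtain ⟨U, hU, h3⟩ := ih
      refine ⟨θ t u * U, mul_mem (hY _ _ hu) hU, fun s => ?_⟩
      rw [Finset.prod_insert ht, map_mul, hΦ _ (hY _ _ (hY _ _ hu)) _ (hY _ _ hU), h3,
        fam_apply θ hθ]
  obtain ⟨U, hU, h3⟩ := h2 Finset.univ
  have h4 : ∀ s, Φ (θ s U) = ∏ t, Φ (θ t u) := fun s => by
    rw [h3]
    exact Fintype.prod_equiv (Equiv.addLeft s) _ _ (fun t => rfl)
  have h5 : Φ U = ∏ t, Φ (θ t u) := by
    have := h4 0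
    rwa [fam_zero θ hθ] at this
  let N : Subgroup H :=
    { carrier := {y | y ∈ Y ∧ Φ y = 1}
      mul_mem' := fun {a b} ha hb => ⟨mul_mem ha.1 hb.1, by rw [hΦ _ ha.1 _ hb.1, ha.2, hb.2, one_mul]⟩
      one_mem' := ⟨one_mem _, h1⟩
      inv_mem' := fun {a} ha => ⟨inv_mem ha.1, by rw [hinv _ ha.1, ha.2, inv_one]⟩ }
  obtain ⟨n, hn, h6⟩ := exists_fixed_in_coset_fam hB θ hθ N
    (fun t x hx => ⟨hY _ _ hx.1, hk _ _ hx.1 hx.2⟩)
    (fun h => hq (h.trans (Subgroup.card_subgroup_dvd_card N))) U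
    (fun t => ⟨mul_mem (inv_mem hU) (hY _ _ hU), by
      rw [hΦ _ (inv_mem hU) _ (hY _ _ hU), hinv _ hU, h4, h5, inv_mul_cancel]⟩)
  exact ⟨U * n, mul_mem hU hn.1, h6, by rw [hΦ _ hU _ hn.1, hn.2, mul_one, h5]⟩

end Avg

theorem mem_of_pow_mem_coprime {M : Type*} [Group M] {p q : ℕ} [Fact p.Prime] [Fact q.Prime]
    (hpq : q ≠ p) (V : Subgroup M) {c : M} {k : ℕ} (hc : c ^ p ^ k = 1) (h : c ^ q ∈ V) :
    c ∈ V := by
  have hcop : Nat.Coprime q (p ^ k) :=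
    ((Nat.coprime_primes Fact.out Fact.out).2 hpq).pow_right k
  have h1 : Nat.Coprime (orderOf c) q :=
    (Nat.Coprime.coprime_dvd_right (orderOf_dvd_of_pow_eq_one hc) hcop).symm
  obtain ⟨m, hm⟩ := exists_pow_eq_self_of_coprime h1.symm
  rw [← hm]
  exact pow_mem h m

theorem prod_lines {M : Type*} [CommGroup M] {q : ℕ} [Fact q.Prime] (f : ZMod q × ZMod q → M) :
    (∏ t : ZMod q, ∏ i : ZMod q, f (i • (1, t))) * ∏ i : ZMod q, f (i • (0, 1)) =
      f 0 ^ q * ∏ j : ZMod q, ∏ i : ZMod q, f (i • (1, 0) + (0, j)) := by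
  classical
  simp only [Prod.smul_mk, smul_eq_mul, mul_one, mul_zero, Prod.mk_add_mk, add_zero, zero_add]
  rw [Finset.prod_comm, Finset.prod_comm (f := fun j i => f (i, j)),
    ← Finset.mul_prod_erase _ _ (Finset.mem_univ (0 : ZMod q)),
    ← Finset.mul_prod_erase _ (fun i => ∏ j, f (i, j)) (Finset.mem_univ (0 : ZMod q))]
  have h1 : ∏ i ∈ Finset.univ.erase (0 : ZMod q), ∏ t : ZMod q, f (i, i * t) =
      ∏ i ∈ Finset.univ.erase (0 : ZMod q), ∏ j : ZMod q, f (i, j) := by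
    refine Finset.prod_congr rfl (fun i hi => ?_)
    exact Fintype.prod_equiv (Equiv.mulLeft₀ i (Finset.ne_of_mem_erase hi)) _ _ (fun t => rfl)
  rw [h1]
  simp only [zero_mul, Finset.prod_const, Finset.card_univ, ZMod.card]
  rw [mul_assoc, mul_comm (∏ i ∈ Finset.univ.erase (0 : ZMod q), ∏ j : ZMod q, f (i, j))]
  rfl

section Step

variable {H : Type*} [Group H] (Z₁ : Subgroup H) [Z₁.Normal]

open Classical in
/-- the image in the centre of the quotient -/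
noncomputable def kap (z : H) : Subgroup.center (H ⧸ Z₁) :=
  if h : (z : H ⧸ Z₁) ∈ Subgroup.center (H ⧸ Z₁) then ⟨z, h⟩ else 1

variable {Z₁} {Z : Subgroup H} (hZ : ⁅Z, (⊤ : Subgroup H)⁆ ≤ Z₁)

include hZ in
theorem mk_mem_center {z : H} (hz : z ∈ Z) : (z : H ⧸ Z₁) ∈ Subgroup.center (H ⧸ Z₁) := by
  rw [Subgroup.mem_center_iff]
  intro g
  obtain ⟨g, rfl⟩ := QuotientGroup.mk_surjective g
  have h1 : ⁅z, g⁆ ∈ Z₁ := hZ (Subgroup.commutator_mem_commutator hz trivial)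
  have h2 := (QuotientGroup.eq_one_iff _).2 h1
  change QuotientGroup.mk' Z₁ ⁅z, g⁆ = 1 at h2
  rw [map_commutatorElement, commutatorElement_eq_one_iff_mul_comm] at h2
  exact h2.symm

include hZ in
theorem kap_val {z : H} (hz : z ∈ Z) : (kap Z₁ z : H ⧸ Z₁) = z := by
  unfold kap
  rw [dif_pos (mk_mem_center hZ hz)]

include hZ in
theorem kap_mul {a b : H} (ha : a ∈ Z) (hb : b ∈ Z) : kap Z₁ (a * b) = kap Z₁ a * kap Z₁ b := by
  apply Subtype.ext
  rw [Subgroup.coe_mul, kap_val hZ ha, kap_val hZ hb, kap_val hZ (mul_mem ha hb)]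
  rfl

include hZ in
theorem kap_eq_one_iff {z : H} (hz : z ∈ Z) : kap Z₁ z = 1 ↔ z ∈ Z₁ := by
  rw [Subtype.ext_iff, kap_val hZ hz]
  exact QuotientGroup.eq_one_iff _

include hZ in
theorem kap_conj {z : H} (hz : z ∈ Z) [hn : Z.Normal] (g : H) :
    kap Z₁ (g * z * g⁻¹) = kap Z₁ z := by
  apply Subtype.ext
  rw [kap_val hZ hz, kap_val hZ (hn.conj_mem z hz g), QuotientGroup.mk_mul, QuotientGroup.mk_mul,
    Subgroup.mem_center_iff.1 (mk_mem_center hZ hz), QuotientGroup.mk_inv, mul_inv_cancel_right]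

end Step

section Main

variable {H : Type*} [Group H] [Finite H] {p q : ℕ} [Fact p.Prime] [Fact q.Prime]
  (hH : IsPGroup p H) (hpq : q ≠ p)
  (θ : ZMod q × ZMod q → MulAut H) (hθ : ∀ s t, θ (s + t) = θ s * θ t)

omit [Finite H] in
theorem comm_inv {Y K : Subgroup H} (γ : MulAut H) (hY : ∀ y ∈ Y, γ y ∈ Y)
    (hK : ∀ y ∈ K, γ y ∈ K) : ∀ z ∈ ⁅Y, K⁆, γ z ∈ ⁅Y, K⁆ := by
  have : ⁅Y, K⁆ ≤ (⁅Y, K⁆).comap γ.toMonoidHom := by
    rw [Subgroup.commutator_le]
    intro a ha b hb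
    rw [Subgroup.mem_comap, map_commutatorElement]
    exact Subgroup.commutator_mem_commutator (hY a ha) (hK b hb)
  exact fun z hz => this hz

include hH hpq hθ in
theorem fix_step (W : Subgroup H)
    (hW : ∀ s, s ≠ 0 → ∀ g ∈ ⁅fixSub (θ s), fixSub (θ s)⁆, (∀ t, θ t g = g) → g ∈ W)
    (Y : Subgroup H) [Y.Normal] (hY : ∀ t, ∀ y ∈ Y, θ t y ∈ Y) {x : H} (hx : x ∈ ⁅Y, (⊤ : Subgroup H)⁆)
    (hfix : ∀ t, θ t x = x) : ∃ w ∈ W, w⁻¹ * x ∈ ⁅⁅Y, (⊤ : Subgroup H)⁆, (⊤ : Subgroup H)⁆ := by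
  classical
  set Z := ⁅Y, (⊤ : Subgroup H)⁆ with hZdef
  set Z₁ := ⁅Z, (⊤ : Subgroup H)⁆ with hZ₁def
  have hZ : ⁅Z, (⊤ : Subgroup H)⁆ ≤ Z₁ := le_rfl
  have hZi : ∀ t, ∀ z ∈ Z, θ t z ∈ Z := fun t => comm_inv _ (hY t) (fun _ _ => trivial)
  have hZ₁i : ∀ t, ∀ z ∈ Z₁, θ t z ∈ Z₁ := fun t => comm_inv _ (hZi t) (fun _ _ => trivial)
  have hq : ¬ q ∣ Nat.card H := by
    rw [← Subgroup.card_top]; exact not_dvd_card_of_pGroup hH hpq _
  have hB : ∀ b : ZMod q × ZMod q, q • b = 0 := fun b => by ext <;> simp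
  have hB1 : ∀ b : ZMod q, q • b = 0 := fun b => by simp
  let V : Subgroup (Subgroup.center (H ⧸ Z₁)) :=
    (W.map (QuotientGroup.mk' Z₁)).subgroupOf _
  have hV : ∀ c, c ^ q ∈ V → c ∈ V := fun c hc => by
    obtain ⟨k, hk⟩ := ((hH.to_quotient Z₁).to_subgroup _) c
    exact mem_of_pow_mem_coprime hpq V hk hc
  let τ : H → Subgroup.center (H ⧸ Z₁) := fun z => ∏ t, kap Z₁ (θ t z)
  have hτ : ∀ a ∈ Z, ∀ b ∈ Z, τ (a * b) = τ a * τ b := fun a ha b hb => by
    simp only [τ, map_mul]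
    rw [← Finset.prod_mul_distrib]
    exact Finset.prod_congr rfl (fun t _ => kap_mul hZ (hZi t a ha) (hZi t b hb))
  have hτc : ∀ a ∈ Z, ∀ g, τ (g * a * g⁻¹) = τ a := fun a ha g => by
    simp only [τ, map_mul, map_inv]
    exact Finset.prod_congr rfl (fun t _ => kap_conj hZ (hZi t a ha) _)
  have hτi : ∀ s z, τ (θ s z) = τ z := fun s z => by
    simp only [τ, fam_apply θ hθ]
    exact Fintype.prod_equiv (Equiv.addRight s) _ _ (fun t => rfl)
  have hc : ∀ u ∈ Y, ∀ v, ⁅u, v⁆ ∈ Z := fun u hu v =>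
    Subgroup.commutator_mem_commutator hu trivial
  have hl : ∀ a ∈ Y, ∀ b ∈ Y, ∀ v, τ ⁅a * b, v⁆ = τ ⁅a, v⁆ * τ ⁅b, v⁆ := fun a ha b hb v => by
    have : ⁅a * b, v⁆ = a * ⁅b, v⁆ * a⁻¹ * ⁅a, v⁆ := by simp only [commutatorElement_def]; group
    rw [this, hτ _ (Subgroup.Normal.conj_mem inferInstance _ (hc b hb v) a) _ (hc a ha v),
      hτc _ (hc b hb v), mul_comm]
  have hr : ∀ u ∈ Y, ∀ a b, τ ⁅u, a * b⁆ = τ ⁅u, a⁆ * τ ⁅u, b⁆ := fun u hu a b => by
    have : ⁅u, a * b⁆ = ⁅u, a⁆ * (a * ⁅u, b⁆ * a⁻¹) := by simp only [commutatorElement_def]; group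
    rw [this, hτ _ (hc u hu a) _ (Subgroup.Normal.conj_mem inferInstance _ (hc u hu b) a),
      hτc _ (hc u hu b)]
  have hθc : ∀ s t g, θ s (θ t g) = θ t (θ s g) := fun s t g => by
    rw [fam_apply θ hθ, fam_apply θ hθ, add_comm]
  have hline : ∀ s : ZMod q × ZMod q, ∀ i j : ZMod q, θ ((i + j) • s) = θ (i • s) * θ (j • s) :=
    fun s i j => by rw [add_smul, hθ]
  have hfixl : ∀ (s : ZMod q × ZMod q) (g : H), θ s g = g → ∀ i : ZMod q, θ (i • s) g = g := by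
    intro s g hg i
    have h1 : ∀ n : ℕ, θ (n • s) g = g := by
      intro n
      induction n with
      | zero => rw [zero_smul, fam_zero θ hθ]; rfl
      | succ n ih => rw [succ_nsmul, ← fam_apply θ hθ, hg, ih]
    have := h1 i.val
    rwa [← Nat.cast_smul_eq_nsmul (ZMod q), ZMod.natCast_zmod_val] at this
  -- both arguments fixed
  have ha : ∀ s, s ≠ 0 → ∀ u ∈ Y, θ s u = u → ∀ v, θ s v = v → τ ⁅u, v⁆ ∈ V := by
    intro s hs u hu hu' v hv'
    have hCi : ∀ t, ∀ y ∈ fixSub (θ s), θ t y ∈ fixSub (θ s) := fun t y hy => by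
      change θ s (θ t y) = θ t y
      rw [hθc, hy]
    obtain ⟨y, hy, h1, h2⟩ := avg_lift hB θ hθ (⁅fixSub (θ s), fixSub (θ s)⁆ ⊓ Z) hq (kap Z₁)
      (fun a ha b hb => kap_mul hZ ha.2 hb.2)
      (fun t y hy => ⟨comm_inv _ (hCi t) (hCi t) y hy.1, hZi t y hy.2⟩)
      (fun t y hy h => (kap_eq_one_iff hZ (hZi t y hy.2)).2
        (hZ₁i t y ((kap_eq_one_iff hZ hy.2).1 h)))
      (u := ⁅u, v⁆) ⟨Subgroup.commutator_mem_commutator hu' hv', hc u hu v⟩
    change _ = τ _ at h2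
    rw [← h2]
    exact ⟨y, hW s hs y hy.1 h1, (kap_val hZ hy.2).symm⟩
  -- first argument fixed
  have hb : ∀ s, s ≠ 0 → ∀ u ∈ Y, θ s u = u → ∀ v, τ ⁅u, v⁆ ∈ V := by
    intro s hs u hu hu' v
    have h0 : ∀ (i : ZMod q) v, τ ⁅u, θ (i • s) v⁆ = τ ⁅u, v⁆ := fun i v => by
      rw [← hτi (i • s) ⁅u, v⁆, map_commutatorElement, hfixl s u hu']
    obtain ⟨y, -, h1, h2⟩ := avg_lift hB1 (fun i : ZMod q => θ (i • s)) (hline s) ⊤ hq
      (fun v => τ ⁅u, v⁆) (fun a _ b _ => hr u hu a b) (fun _ _ _ => trivial)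
      (fun i y _ h => by rw [h0, h]) (u := v) trivial
    apply hV
    simp only [h0, Finset.prod_const, Finset.card_univ, ZMod.card] at h2
    rw [← h2]
    exact ha s hs u hu hu' y (by simpa using h1 1)
  -- sums over lines
  have hd : ∀ s, s ≠ 0 → ∀ u ∈ Y, ∀ v, ∏ i : ZMod q, τ ⁅θ (i • s) u, v⁆ ∈ V := by
    intro s hs u hu v
    obtain ⟨y, hy, h1, h2⟩ := avg_lift hB1 (fun i : ZMod q => θ (i • s)) (hline s) Y hq
      (fun u => fun v => τ ⁅u, v⁆) (fun a ha b hb => funext (fun v => hl a ha b hb v))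
      (fun i y hy => hY _ y hy)
      (fun i y _ h => funext (fun v => by
        have := congrFun h ((θ (i • s))⁻¹ v)
        rw [← hτi (i • s), map_commutatorElement, MulAut.apply_inv_self] at this
        exact this)) hu
    have h3 := congrFun h2 v
    rw [Finset.prod_apply] at h3
    rw [← h3]
    exact hb s hs y hy (by simpa using h1 1) v
  have he : ∀ u ∈ Y, ∀ v, τ ⁅u, v⁆ ∈ V := by
    intro u hu v
    apply hV
    have h1 := prod_lines (fun s : ZMod q × ZMod q => τ ⁅θ s u, v⁆)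
    rw [fam_zero θ hθ] at h1
    have h2 : ∏ j : ZMod q, ∏ i : ZMod q,
        τ ⁅θ (i • ((1 : ZMod q), (0 : ZMod q)) + (0, j)) u, v⁆ ∈ V :=
      Subgroup.prod_mem _ (fun j _ => by
        simp only [← fam_apply θ hθ]
        exact hd _ (by simp) _ (hY _ u hu) v)
    rw [← V.mul_mem_cancel_right h2]
    change τ ⁅(1 : MulAut H) u, v⁆ ^ q * _ ∈ V
    rw [← h1]
    exact mul_mem (Subgroup.prod_mem _ (fun t _ => hd _ (by simp) u hu v)) (hd _ (by simp) u hu v)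
  have hf : ∀ z ∈ Z, τ z ∈ V := by
    intro z hz
    have h1 : τ 1 = 1 := by
      have := hτ 1 (one_mem _) 1 (one_mem _)
      rw [one_mul] at this
      exact (mul_eq_left.1 this.symm)
    rw [hZdef, Subgroup.commutator_def] at hz
    induction hz using Subgroup.closure_induction with
    | mem z hz =>
      obtain ⟨u, hu, v, -, rfl⟩ := hz
      exact he u hu v
    | one => rw [h1]; exact one_mem _
    | mul a b ha hb iha ihb => rw [hτ a ha b hb]; exact mul_mem iha ihb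
    | inv a ha iha =>
      have : τ a⁻¹ = (τ a)⁻¹ := by
        rw [eq_inv_iff_mul_eq_one, ← hτ _ (inv_mem ha) _ ha, inv_mul_cancel, h1]
      rw [this]; exact inv_mem iha
  have h1 : kap Z₁ x ∈ V := by
    apply hV
    apply hV
    have := hf x hx
    simp only [τ, hfix, Finset.prod_const, Finset.card_univ, Fintype.card_prod, ZMod.card] at this
    rwa [← pow_mul]
  obtain ⟨w, hw, h2⟩ := h1
  refine ⟨w, hw, QuotientGroup.eq.1 ?_⟩
  rw [← kap_val hZ hx]
  exact h2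

omit [Finite H] in
theorem pow_eq_one_of_mem_biSup {C ι : Type*} [Group C] (N : ι → Subgroup C)
    (hN : ∀ i, (N i).Normal) {m : ℕ} (S : Finset ι) (hm : ∀ i ∈ S, ∀ g ∈ N i, g ^ m = 1) :
    ∀ g ∈ S.sup N, g ^ m ^ S.card = 1 := by
  classical
  induction S using Finset.induction_on with
  | empty => intro g hg; simpa using hg
  | insert i S hi ih =>
    intro g hg
    rw [Finset.sup_insert] at hg
    have := hN i
    obtain ⟨a, ha, b, hb, rfl⟩ := Subgroup.mem_sup_of_normal_left.1 hg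
    have h1 := ih (fun j hj => hm j (Finset.mem_insert_of_mem hj)) b hb
    have h2 : (a * b) ^ m ^ S.card ∈ N i := by
      rw [← QuotientGroup.eq_one_iff, QuotientGroup.mk_pow, QuotientGroup.mk_mul,
        (QuotientGroup.eq_one_iff a).2 ha, one_mul, ← QuotientGroup.mk_pow, h1,
        QuotientGroup.mk_one]
    rw [Finset.card_insert_of_notMem hi, pow_succ, pow_mul]
    exact hm i (Finset.mem_insert_self _ _) _ h2

include hH hpq hθ in
/-- the fixed points in the derived subgroup have bounded exponent -/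
theorem fix_derived {m : ℕ}
    (hm : ∀ s, s ≠ 0 → ∀ g ∈ ⁅fixSub (θ s), fixSub (θ s)⁆, g ^ m = 1) {x : H}
    (hx : x ∈ commutator H) (hfix : ∀ t, θ t x = x) : x ^ m ^ (q * q - 1) = 1 := by
  classical
  let C : Subgroup H := ⨅ t, fixSub (θ t)
  have hC : ∀ g, g ∈ C ↔ ∀ t, θ t g = g := fun g => Subgroup.mem_iInf
  let N : ZMod q × ZMod q → Subgroup C := fun s => (⁅fixSub (θ s), fixSub (θ s)⁆).subgroupOf C
  have hN : ∀ s, (N s).Normal := fun s => ⟨fun n hn g => by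
    have h1 : ∀ y ∈ fixSub (θ s), MulAut.conj (g : H) y ∈ fixSub (θ s) := fun y hy =>
      mul_mem (mul_mem ((hC _).1 g.2 s) hy) (inv_mem ((hC _).1 g.2 s))
    exact comm_inv (MulAut.conj (g : H)) h1 h1 _ hn⟩
  let S : Finset (ZMod q × ZMod q) := Finset.univ.erase 0
  let W : Subgroup H := (S.sup N).map C.subtype
  have hW : ∀ s, s ≠ 0 → ∀ g ∈ ⁅fixSub (θ s), fixSub (θ s)⁆, (∀ t, θ t g = g) → g ∈ W :=
    fun s hs g hg hg' => ⟨⟨g, (hC g).2 hg'⟩,
      Finset.le_sup (f := N) (Finset.mem_erase.2 ⟨hs, Finset.mem_univ s⟩) hg, rfl⟩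
  have hWC : W ≤ C := Subgroup.map_subtype_le _
  have hinv : ∀ i t, ∀ y ∈ (⊤ : Subgroup H).lowerCentralSeries i,
      θ t y ∈ (⊤ : Subgroup H).lowerCentralSeries i := by
    intro i t
    induction i with
    | zero => exact fun _ _ => trivial
    | succ i ih => exact comm_inv _ ih (fun _ _ => trivial)
  have := hH.isNilpotent
  obtain ⟨c, hc⟩ := Subgroup.nilpotent_iff_lowerCentralSeries.1 this
  have key : ∀ k i, i + k = c → ∀ x ∈ (⊤ : Subgroup H).lowerCentralSeries (i + 1), x ∈ C → x ∈ W := by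
    intro k
    induction k with
    | zero =>
      intro i hi x hx _
      have h1 := Subgroup.lowerCentralSeries_antitone _ (Nat.le_succ i) hx
      rw [add_zero] at hi
      rw [hi, hc, Subgroup.mem_bot] at h1
      rw [h1]; exact one_mem _
    | succ k ih =>
      intro i hi x hx hx'
      obtain ⟨w, hw, h1⟩ := fix_step hH hpq θ hθ W hW ((⊤ : Subgroup H).lowerCentralSeries i) (hinv i) hx
        ((hC x).1 hx')
      have h2 := ih (i + 1) (by omega) _ h1 (mul_mem (inv_mem (hWC hw)) hx')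
      simpa using mul_mem hw h2
  obtain ⟨y, hy, rfl⟩ := key c 0 (zero_add c) x hx ((hC x).2 hfix)
  have h1 := pow_eq_one_of_mem_biSup N hN (m := m) S
    (fun s hs g hg => Subtype.ext (hm s (Finset.ne_of_mem_erase hs) g hg)) y hy
  have h2 : S.card = q * q - 1 := by simp [S]
  rw [h2] at h1
  exact congrArg Subtype.val h1

end Main

end Cfsg.Agent.Zel.Grp
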